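import Cfsg.Statements.S5575

set_option autoImplicit false
open Subgroup

namespace Cfsg.Agent.J4A

variable {G : Type*} [Group G]

/-- Abstract interface for a group of Janko-four type (piece A of the plan). -/
structure J4I (z t x y s f : G) (E : Subgroup G) : Prop where
  ord : Nat.card G = 86775571046077562880
  z2 : orderOf z = 2
  t2 : orderOf t = 2
  inv : ∀ u : G, orderOf u = 2 → IsConj z u ∨ IsConj t u
  cz : Nat.card (centralizer ({z} : Set G)) = 21799895040
  ct : Nat.card (centralizer ({t} : Set G)) = 1816657920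
  x3 : orderOf x = 3
  c3 : ∀ u : G, orderOf u = 3 → IsConj x u
  cx : centralizer ({x} : Set G) ≤ centralizer ({z} : Set G)
  cx' : Nat.card (centralizer ({x} : Set G)) = 2661120
  c5 : ∀ u : G, orderOf u = 5 → Nat.card (centralizer ({u} : Set G)) = 6720
  c7 : ∀ u : G, orderOf u = 7 → Nat.card (centralizer ({u} : Set G)) = 840
  y11 : orderOf y = 11
  q8 : Nonempty (E ≃* QuaternionGroup 2)
  zE : z ∈ E
  cy : centralizer ({z} : Set G) ⊓ centralizer ({y} : Set G) = E ⊔ zpowers x ⊔ zpowers y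
  cy' : Nat.card (centralizer ({z} : Set G) ⊓ centralizer ({y} : Set G) : Subgroup G) = 264
  xE : x ∈ normalizer (E : Set G)
  Ex : E ⊓ centralizer ({x} : Set G) = zpowers z
  s2 : orderOf s = 2
  sz : s * z = z * s
  sy : s * y * s⁻¹ = y⁻¹
  sx : s * x * s⁻¹ = x⁻¹
  sE : s ∈ normalizer (E : Set G)
  f5 : orderOf f = 5
  fz : f * z = z * f
  fy : f * y * f⁻¹ = y ^ 3
  ty : ∀ u : G, orderOf u = 11 → Commute t u →
    Nat.card (centralizer ({t} : Set G) ⊓ centralizer ({u} : Set G) : Subgroup G) = 22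
  f31 : ∃ a b : G, orderOf a = 31 ∧ orderOf b = 5 ∧ b * a * b⁻¹ = a ^ 2

/-- The conclusion of S5577 in element form. -/
def BigP (G : Type*) [Group G] : Prop :=
  ∀ r e : ℕ, (r, e) ∈ [(23, 22), (29, 28), (31, 10), (37, 12), (43, 14)] → ∀ u : G, orderOf u = r →
    centralizer ({u} : Set G) = zpowers u ∧
      Nat.card (normalizer (zpowers u : Set G)) = r * e

end Cfsg.Agent.J4A
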