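import Cfsg.Agent.J4A.Big

set_option autoImplicit false
open Subgroup

namespace Cfsg.Agent.J4A
open H11

variable {G : Type*} [Group G] [Finite G] {z t x y s f : G} {E : Subgroup G}

local notation "𝐂[" a "]" => centralizer ({a} : Set G)
local notation "𝐍[" A "]" => normalizer ((A : Subgroup G) : Set G)

theorem eq_of_le_card {A B : Subgroup G} (h : A ≤ B) (hc : Nat.card B ≤ Nat.card A) : A = B :=
  eq_of_le_of_card_ge h hc

/-- `U = O(C(y))` is abelian -/
abbrev AB (y : G) : Prop := ∀ a ∈ OU y, ∀ b ∈ OU y, a * b = b * a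

/-- elements of `U` inverted by `z` -/
def WW (z y : G) (hab : AB y) : Subgroup G where
  carrier := {u | u ∈ OU y ∧ z * u * z⁻¹ = u⁻¹}
  one_mem' := ⟨one_mem _, by simp⟩
  mul_mem' := by
    rintro a b ⟨ha, ha'⟩ ⟨hb, hb'⟩
    refine ⟨mul_mem ha hb, ?_⟩
    rw [hab a ha b hb, mul_inv_rev, ← ha', ← hb']
    have := hab a ha b hb
    calc z * (b * a) * z⁻¹ = z * (a * b) * z⁻¹ := by rw [this]
      _ = _ := by group
  inv_mem' := by
    rintro a ⟨ha, ha'⟩
    refine ⟨inv_mem ha, ?_⟩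
    calc z * a⁻¹ * z⁻¹ = (z * a * z⁻¹)⁻¹ := by group
      _ = _ := by rw [ha']

namespace J4I
variable (h : J4I z t x y s f E)
include h

theorem in_O {Q : Subgroup G} (hQ : IsPGroup 11 Q) (hle : Q ≤ 𝐍[OU y]) : Q ≤ OU y :=
  h.O_syl.le_of_normalizes hQ le_top hle

theorem odd_O : Odd (Nat.card (OU y)) := by rw [h.cardO]; decide

theorem cardY : Nat.card (zpowers y) = 11 := by rw [card_zp, h.y11]

theorem Y_le : zpowers y ≤ OU y := zpowers_le.2 h.y_O

theorem card_range {hab : AB y} {n : G} (hn : n ∈ 𝐍[OU y]) (ho : orderOf n = 2 ∨ orderOf n = 3)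
    (hc : Nat.card (OU y ⊓ 𝐂[n] : Subgroup G) ≠ 1) : Nat.card (cm (OU y) hab n hn).range = 121 := by
  have h1 := card_cm (U := OU y) (hU := hab) (hn := hn)
  rw [((Nat.dvd_prime (by norm_num)).1 (h.cent11 ho h.O_pg)).resolve_left hc, h.cardO] at h1
  omega

theorem W_eq (hab : AB y) : WW z y hab = (cm (OU y) hab z (OU_norm' h.zy)).range := by
  ext u
  exact (mem_cm (sq1 h.z2) h.odd_O).symm

theorem cardW (hab : AB y) : Nat.card (WW z y hab) = 121 := by
  rw [h.W_eq, h.card_range _ (Or.inl h.z2)]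
  rw [h.cent_y (Or.inl h.z2) h.zy, h.cardY]; norm_num

theorem YW_sup (hab : AB y) : zpowers y ⊔ WW z y hab = OU y := by
  refine le_antisymm (sup_le h.Y_le fun u hu => hu.1) fun u hu => ?_
  have hz := conj_mem_of_mem_normalizer (OU_norm' h.zy) hu
  have e : z⁻¹ = z := inv_eq_of_mul_eq_one_right (sq1 h.z2)
  have zz := sq1 h.z2
  have h1 : u * (z * u * z⁻¹) ∈ zpowers y := h.O_cz (mul_mem hu hz) (mc' (mc_of_conj (by
    have hc := hab u hu _ hz
    rw [e] at hc ⊢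
    calc z * (u * (z * u * z)) * z = (z * u * z) * u * (z * z) := by group
      _ = _ := by rw [zz, mul_one, hc])))
  have h2 : (z * u * z⁻¹)⁻¹ * u ∈ WW z y hab := ⟨mul_mem (inv_mem hz) hu, by
    calc z * ((z * u * z⁻¹)⁻¹ * u) * z⁻¹ = (z * z) * u⁻¹ * (z⁻¹ * u * z⁻¹) := by group
      _ = u⁻¹ * (z * u * z⁻¹) := by rw [zz, one_mul]; nth_rewrite 1 [e]; rfl
      _ = _ := by group⟩
  have h3 : u * u ∈ zpowers y ⊔ WW z y hab := by
    have := mul_mem (mem_sup_left (T := WW z y hab) h1) (mem_sup_right (S := zpowers y) h2)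
    rwa [show u * (z * u * z⁻¹) * ((z * u * z⁻¹)⁻¹ * u) = u * u by group] at this
  have h4 : u ^ 1331 = 1 := by
    rw [← h.cardO]; exact orderOf_dvd_iff_pow_eq_one.1 (ord_dvd hu)
  have h5 : (u * u) ^ 666 = u := by rw [← sq, ← pow_mul, show 2 * 666 = 1331 + 1 by norm_num, pow_succ, h4, one_mul]
  exact h5 ▸ pow_mem h3 666

theorem W_normC (hab : AB y) {g : G} (hg : g ∈ 𝐍[OU y]) (hz : g ∈ 𝐂[z]) : g ∈ 𝐍[WW z y hab] :=
  mem_normalizer_of_forall fun w hw => ⟨conj_mem_of_mem_normalizer hg hw.1, by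
    calc z * (g * w * g⁻¹) * z⁻¹ = (z * g) * w * (z * g)⁻¹ := by group
      _ = g * (z * w * z⁻¹) * g⁻¹ := by rw [← mc.1 hz]; group
      _ = _ := by rw [hw.2]; group⟩

theorem W_normY (hab : AB y) : 𝐂[y] ≤ 𝐍[WW z y hab] := by
  rw [← h.O_sup]
  refine sup_le (fun u hu => mem_normalizer_of_forall fun w hw => ?_)
    fun g hg => h.W_normC hab (OU_norm' hg.2) hg.1
  rwa [hab u hu w hw.1, mul_inv_cancel_right]

theorem W_norm (hab : AB y) : 𝐍[zpowers y] ≤ 𝐍[WW z y hab] := fun n hn => by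
  obtain ⟨g, hg, e⟩ := h.inv_C (conj_mem_of_mem_normalizer (cent_normal y hn) h.zy)
    ((ord_conj _ _).trans h.z2)
  have h1 : g * n ∈ 𝐍[WW z y hab] := h.W_normC hab (mul_mem (OU_norm' hg) (OU_norm hn))
    (mc_of_conj (by rw [← e]; nth_rewrite 2 [← e]; group))
  simpa using mul_mem (inv_mem (h.W_normY hab hg)) h1

theorem range_W (hab : AB y) {n : G} (hn : n ∈ 𝐂[y]) (ho : orderOf n = 2 ∨ orderOf n = 3) :
    (cm (OU y) hab n (OU_norm' hn)).range = WW z y hab := by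
  refine eq_of_le_card ?_ ?_
  · rintro _ ⟨⟨u, hu⟩, rfl⟩
    have hu' := hu
    rw [← h.YW_sup hab] at hu'
    obtain ⟨a, ha, b, hb, rfl⟩ := (H1.mem_sup_of_le_normalizer_right
      ((h.Y_le.trans OU_le).trans (h.W_normY hab))).1 hu'
    rw [cm_apply]
    have h1 : n * a * n⁻¹ = a := conj_of_mc (by
      obtain ⟨k, rfl⟩ := ha
      exact mc' (zpow_mem (mc' hn) k))
    have h2 : ((a * b)⁻¹ * (n * (a * b) * n⁻¹) : G) = b⁻¹ * (n * b * n⁻¹) := by
      calc (a * b)⁻¹ * (n * (a * b) * n⁻¹) = b⁻¹ * a⁻¹ * (n * a * n⁻¹) * (n * b * n⁻¹) := by group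
        _ = _ := by rw [h1]; group
    simp only [h2]
    exact mul_mem (inv_mem hb) (conj_mem_of_mem_normalizer (h.W_normY hab hn) hb)
  · rw [h.cardW, h.card_range _ ho]
    rw [h.cent_y ho hn, h.cardY]; norm_num

/-- if `[N(U):N(Y)]` is odd then `N(U) = N(Y)` -/
theorem NU_of_odd (h2 : ¬ 2 ∣ (𝐍[zpowers y]).relIndex 𝐍[OU y]) : 𝐍[OU y] = 𝐍[zpowers y] := by
  haveI : Fact (Nat.Prime 11) := ⟨by norm_num⟩
  set k := (𝐍[zpowers y]).relIndex 𝐍[OU y] with hk
  have h1 := relIndex_mul_index (OU_norm (y := y))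
  have h3 := card_mul_index 𝐍[zpowers y]
  rw [h.cardN, h.ord] at h3
  have h4 : (𝐍[zpowers y]).index = 63 * 4311889608704 := by omega
  have h5 := syl_mod h.O_syl
  have h6 := card_mul_relIndex (OU_norm (y := y))
  have h7 : k ∣ 63 := by
    refine Nat.Coprime.dvd_of_dvd_mul_right (n := 4311889608704) ?_ ⟨_, by rw [← h4, ← h1]⟩
    refine Nat.coprime_of_dvd fun p hp hd hd' => ?_
    have hb : p = 2 ∨ Big p := by
      rcases prime_dvd_cases hp (hd'.trans (by norm_num)) with rfl | rfl | rfl | rfl | rfl | hb <;>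
        first | tauto | norm_num at hd'
    rcases hb with rfl | hb
    · exact h2 hd
    · obtain ⟨a, ha, ho⟩ := exists_ord (H := 𝐍[OU y]) hp (h6 ▸ hd.mul_left _)
      exact h.NU_big ha hb ho
  have h8 : k % 11 = 1 := by
    have : (k * (𝐍[OU y]).index) % 11 = 1 := by rw [h1, h4]
    rw [Nat.mul_mod, h5] at this
    simpa using this
  have h9 : k = 1 := by
    have := Nat.le_of_dvd (by norm_num) h7
    clear_value k
    interval_cases k <;> first | rfl | omega | norm_num at h7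
  exact le_antisymm (relIndex_eq_one.1 h9) OU_norm

theorem NU (hab : AB y) : 𝐍[OU y] = 𝐍[zpowers y] := by
  have hE : E ≤ 𝐍[OU y] := fun e he => OU_norm' (h.E_le he).2
  obtain ⟨T, hT, hET⟩ := exists_isSylIn_le h.pgE hE
  obtain ⟨c, hc, ho, hcc⟩ := exists_orderOf_eq_centralizer_of_normalized hT.pg hT.pg
    (by rintro rfl; exact ne1 h.z2 (hET h.zE)) le_normalizer
  have hTY : T ≤ 𝐍[zpowers y] := by
    have hn : T ≤ 𝐍[OU y ⊓ 𝐂[c]] := fun g hg => mem_normalizer_of_forall fun a ha =>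
      ⟨conj_mem_of_mem_normalizer (hT.le hg) ha.1,
        (𝐂[c]).mul_mem (mul_mem (mc.2 (hcc g hg)) ha.2) (inv_mem (mc.2 (hcc g hg)))⟩
    rcases (Nat.dvd_prime (by norm_num)).1 (h.cent11 (Or.inl ho) h.O_pg) with h1 | h1
    · exfalso
      have h2 := card_cm (U := OU y) (hU := hab) (hn := hT.le hc)
      rw [h1, mul_one] at h2
      have h3 : ∀ u ∈ OU y, c * u * c⁻¹ = u⁻¹ := fun u hu =>
        ((mem_cm (sq1 ho) h.odd_O).1 (eq_of_le_card cm_le h2.ge ▸ hu)).2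
      have hzc := hcc z (hET h.zE)
      by_cases h4 : c * z = 1
      · have h5 := h3 y h.y_O
        rw [eq_inv_of_mul_eq_one_left h4, conj_of_mc (inv_mem h.zy)] at h5
        exact ne1 h.y11 (eq_one_of_inv (by rw [h.y11]; decide) h5)
      · have h5 : orderOf (c * z) = 2 := ord2 (by
          calc c * z * (c * z) = c * (z * c) * z := by group
            _ = (c * c) * (z * z) := by rw [hzc]; group
            _ = 1 := by rw [sq1 ho, sq1 h.z2, one_mul]) h4
        have h6 := h.cent11 (Or.inl h5) (h.O_pg.to_le (H := WW z y hab) fun u hu => hu.1)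
        rw [inf_eq_left.2, h.cardW] at h6
        · norm_num at h6
        · intro w hw
          refine mc' (mc_of_conj ?_)
          calc c * z * w * (c * z)⁻¹ = c * (z * w * z⁻¹) * c⁻¹ := by group
            _ = w := by rw [hw.2, h3 _ (inv_mem hw.1), inv_inv]
    · obtain ⟨v, hv, hvo⟩ := exists_ord (H := OU y ⊓ 𝐂[c]) (p := 11) (by norm_num) (by rw [h1])
      have h2 := zp_eq (by norm_num) h1 hv (ne1 hvo)
      rw [← h2] at hn
      have h3 := h.O_cz hv.1 (mc' (h.z_cent (hET.trans hn)))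
      rwa [zp_eq (by norm_num) h.cardY h3 (ne1 hvo)] at hn
  refine h.NU_of_odd fun h2 => hT.not_dvd_relIndex (h2.trans ?_)
  exact relIndex_dvd_of_le_left _ hTY

/-- an element of `U` of `y`-type with `U ≤ C(v)` generates `⟨y⟩` when `N(U) = N(Y)` -/
theorem yt_eq (hN : 𝐍[OU y] = 𝐍[zpowers y]) {v : G} (hv : OU y ≤ 𝐂[v]) (hy : YT y v) :
    zpowers v = zpowers y := by
  obtain ⟨g, hg⟩ := hy
  have h1 : cj g (OU y) ≤ 𝐂[y] := by
    rw [← cent_zp, ← hg, ← cj_centralizer, cent_zp]; exact cj_mono g hv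
  have h2 := mem_normalizer_of_cj_le (h.in_O (IsPGroup_cj h.O_pg g) (h1.trans OU_norm'))
  rw [hN] at h2
  exact cj_injective g (hg.trans (cj_eq_iff.2 h2).symm)

theorem other11 {v : G} (hv : orderOf v = 11) (hn : ¬ YT y v) :
    ∃ D ≤ 𝐂[v], Nat.card D ∣ 11 ^ 3 ∧ 𝐂[v] ≤ 𝐍[D] ∧ D.relIndex 𝐂[v] ∣ 2 := by
  obtain ⟨D, h1, h2, h3, h4⟩ := h.other hv hn
  refine ⟨D, h1, dvd_pow_of_prime (by norm_num) Nat.card_pos.ne' h2 (by norm_num) fun p hp hd => ?_,
    h3, h4⟩
  obtain ⟨a, ha, ho⟩ := exists_ord hp hd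
  have hb : p = 11 ∨ Big p := by
    rcases prime_dvd_cases hp ((hd.trans h2).trans (by norm_num)) with
      rfl | rfl | rfl | rfl | rfl | hb <;> first | tauto | (have := hd.trans h2; norm_num at this)
  refine hb.resolve_right fun hb => ?_
  have h5 : ∃ e, (p, e) ∈ [(23, 22), (29, 28), (31, 10), (37, 12), (43, 14)] := by
    rcases hb with rfl | rfl | rfl | rfl | rfl <;> simp
  obtain ⟨e, he⟩ := h5
  have h6 := ord_dvd ((h.bigP p e he a ho).1 ▸ mc' (h1 ha))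
  rw [card_zp, ho, hv] at h6
  rcases hb with rfl | rfl | rfl | rfl | rfl <;> norm_num at h6

theorem cent_NU (hab : AB y) {v : G} (hv : v ∈ OU y) (ho : orderOf v = 11) : 𝐂[v] ≤ 𝐍[OU y] := by
  have hU : OU y ≤ 𝐂[v] := fun u hu => mc.2 (hab u hu v hv)
  by_cases hy : YT y v
  · rw [← cent_zp, h.yt_eq (h.NU hab) hU hy, cent_zp]; exact OU_norm'
  · obtain ⟨D, h1, h2, h3, h4⟩ := h.other11 ho hy
    have h5 : OU y ≤ D := fun u hu => odd_mem h3 h4 (hU hu) (h.odd_O.of_dvd_nat (ord_dvd hu))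
    rwa [eq_of_le_card h5 (by rw [h.cardO]; exact Nat.le_of_dvd (by norm_num) h2)]

theorem ti (hab : AB y) (g u : G) (hu : u ∈ OU y) (h1 : u ≠ 1) (hg : g * u * g⁻¹ ∈ OU y) :
    g ∈ 𝐍[OU y] := by
  obtain ⟨v, hv, ho⟩ := exists_ord (H := zpowers u) (p := 11) (by norm_num) (by
    have h2 := ord_dvd hu
    rw [h.cardO, show 1331 = 11 ^ 3 by norm_num] at h2
    obtain ⟨k, -, hk⟩ := (Nat.dvd_prime_pow (by norm_num)).1 h2
    rw [card_zp, hk]
    exact dvd_pow_self _ (by rintro rfl; exact h1 (orderOf_eq_one_iff.1 hk)))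
  have hvU : v ∈ OU y := zpowers_le.2 hu hv
  have hgv : g * v * g⁻¹ ∈ OU y := by
    obtain ⟨k, rfl⟩ := hv
    simpa using zpow_mem hg k
  have h2 : cj g (OU y) ≤ 𝐂[g * v * g⁻¹] := by
    rw [← cj_cent1]; exact cj_mono g fun a ha => mc.2 (hab a ha v hvU)
  exact mem_normalizer_of_cj_le (h.in_O (IsPGroup_cj h.O_pg g)
    (h2.trans (h.cent_NU hab hgv ((ord_conj _ _).trans ho))))

end J4I
end Cfsg.Agent.J4A
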