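import Cfsg.Agent.J4A.Chr

set_option autoImplicit false
open Subgroup
open scoped ComplexConjugate

namespace Cfsg.Agent.J4A
open H4

variable {G : Type*} [Group G] {U : Subgroup G}

/-- `κ` is trivial on `A` -/
def Triv (κ : IrrCharacter U) (A : Subgroup G) : Prop := ∀ u : U, (u : G) ∈ A → κ.1 u = 1

theorem lin_mul (hU : ∀ a b : U, a * b = b * a) (κ : IrrCharacter U) (a b : U) :
    κ.1 (a * b) = κ.1 a * κ.1 b :=
  κ.2.isCharacter.map_mul_of_apply_one (κ.2.apply_one_eq_one_of_comm hU) a b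

theorem Triv.mono {κ : IrrCharacter U} {A B : Subgroup G} (h : Triv κ B) (hAB : A ≤ B) :
    Triv κ A := fun u hu => h u (hAB hu)

theorem triv_iff (hU : ∀ a b : U, a * b = b * a) {κ : IrrCharacter U} {A : Subgroup G} :
    Triv κ A ↔ A.subgroupOf U ≤ charKer κ.1 :=
  ⟨fun h u hu x => by rw [lin_mul hU, h u hu, one_mul], fun h u hu => by
    rw [apply_of_mem_charKer (h hu), κ.2.apply_one_eq_one_of_comm hU]⟩

theorem Triv.sup (hU : ∀ a b : U, a * b = b * a) {κ : IrrCharacter U} {A B : Subgroup G}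
    (hA : A ≤ U) (hB : B ≤ U) (h : Triv κ A) (h' : Triv κ B) : Triv κ (A ⊔ B) := by
  rw [triv_iff hU] at h h' ⊢
  rw [subgroupOf_sup hA hB]
  exact sup_le h h'

theorem triv_zp (hU : ∀ a b : U, a * b = b * a) {κ : IrrCharacter U} {a : U} (h : κ.1 a = 1) :
    Triv κ (zpowers (a : G)) := by
  rw [triv_iff hU]
  have h1 : zpowers a ≤ charKer κ.1 := zpowers_le.2 fun x => by rw [lin_mul hU, h, one_mul]
  rintro u ⟨k, hk⟩
  exact h1 ⟨k, Subtype.ext (by simpa using hk)⟩

theorem Triv.eq_one {κ : IrrCharacter U} (h : Triv κ U) : κ = irrOne U :=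
  Subtype.ext (funext fun u => h u u.2)

theorem fix_iff {hU : ∀ a ∈ U, ∀ b ∈ U, a * b = b * a} {n : G} {hn : n ∈ normalizer (U : Set G)}
    {κ : IrrCharacter U} :
    (⟨n, hn⟩ : normalizer (U : Set G)) • κ = κ ↔ Triv κ (cm U hU n hn).range := by
  have hU' : ∀ a b : U, a * b = b * a := fun a b => Subtype.ext (hU _ a.2 _ b.2)
  have k : ∀ u : U, κ.1 u⁻¹ * κ.1 u = 1 := fun u => by
    rw [← lin_mul hU', inv_mul_cancel, κ.2.apply_one_eq_one_of_comm hU']
  rw [← eq_inv_smul_iff, Subtype.ext_iff, funext_iff]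
  simp only [smul_apply, inv_inv]
  constructor
  · rintro h u ⟨v, hv⟩
    have : u = v⁻¹ * U.normalizerMonoidHom ⟨n, hn⟩ v := Subtype.ext hv.symm
    rw [this, lin_mul hU', ← h, k]
  · intro h u
    have h1 := h (u⁻¹ * U.normalizerMonoidHom ⟨n, hn⟩ u) ⟨u, rfl⟩
    rw [lin_mul hU'] at h1
    calc κ.1 u = κ.1 u * (κ.1 u⁻¹ * κ.1 (U.normalizerMonoidHom ⟨n, hn⟩ u)) := by rw [h1, mul_one]
      _ = _ := by rw [← mul_assoc, mul_comm (κ.1 u), k, one_mul]

theorem Triv.smul {κ : IrrCharacter U} {A : Subgroup G} (h : Triv κ A)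
    (n : normalizer (U : Set G)) (hn : (n : G) ∈ normalizer (A : Set G)) : Triv (n • κ) A :=
  fun u hu => h _ (by simpa [coe_nh] using H11.conj_mem_of_mem_normalizer' hn hu)

theorem sub_normal (hU : ∀ a b : U, a * b = b * a) (B : Subgroup U) : B.Normal :=
  ⟨fun n hn g => by rwa [hU g, mul_inv_cancel_right]⟩

variable [Finite G]

theorem sum_sub [Fintype U] (hU : ∀ a b : U, a * b = b * a) (κ : IrrCharacter U) {A : Subgroup G}
    (hA : A ≤ U) [DecidablePred (· ∈ A)] [Decidable (Triv κ A)] :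
    ∑ u : U, (if (u : G) ∈ A then κ.1 u else 0) = if Triv κ A then (Nat.card A : ℂ) else 0 := by
  classical
  haveI := sub_normal hU (A.subgroupOf U)
  have e : ∑ u : U, (if (u : G) ∈ A then κ.1 u else 0) = ∑ a : A.subgroupOf U, κ.1 a := by
    rw [← Finset.sum_filter]
    exact Finset.sum_subtype _ (fun u => by simp [mem_subgroupOf]) _
  rw [e]
  split_ifs with h
  · rw [Finset.sum_congr rfl fun a _ => h a.1 a.2]
    simp [← H11.card_subgroupOf hA]
  · exact κ.2.sum_normal_eq_zero _ (fun h' => h ((triv_iff hU).2 h'))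

theorem card_triv (hU : ∀ a b : U, a * b = b * a) {A : Subgroup G} (hA : A ≤ U) :
    Nat.card {κ : IrrCharacter U // Triv κ A} * Nat.card A = Nat.card U := by
  haveI := sub_normal hU (A.subgroupOf U)
  simp only [triv_iff hU]
  rw [← Nat.card_congr (irrQuotientEquiv (A.subgroupOf U)), card_irr_of_comm, ← H11.card_subgroupOf hA,
    mul_comm]
  · exact (A.subgroupOf U).card_mul_index
  · intro a b
    obtain ⟨a, rfl⟩ := QuotientGroup.mk_surjective a
    obtain ⟨b, rfl⟩ := QuotientGroup.mk_surjective b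
    rw [← QuotientGroup.mk_mul, hU, QuotientGroup.mk_mul]

omit U in
theorem mem_principal {p : ℕ} {M : Ideal AlgInt} (hM : IsPModular p M)
    (hp : ∀ g : G, g ≠ 1 → ¬ p ∣ orderOf g → p ∣ (centralizer ({g} : Set G)).index)
    {ψ : IrrCharacter G} (hψ : ¬ p ∣ charDegree ψ.1) : ψ ∈ principalBlock M G := by
  haveI := Fintype.ofFinite G
  haveI := hM.2.1
  refine H6.sameBlock_of_pRegular hM isIrrCharacter_one ψ.2 fun g hg => ?_
  by_cases h1 : g = 1
  · subst h1
    simp [centralChar, mul_div_assoc, div_self ψ.2.apply_one_ne_zero]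
  · have h2 := (H6.memLocalIdeal_natCast_iff hM _).2 (hp g h1 hg)
    rw [H6.redC_eq_zero_of_memLocalIdeal, H6.redC_eq_zero_of_memLocalIdeal]
    · rw [centralChar, mul_div_assoc, div_eq_mul_inv, ← ψ.2.isCharacter.charDegree_cast]
      exact H6.MemLocalIdeal.mul_right' h2 (mul_mem
        (H6.mem_locRing_of_isIntegral (ψ.2.isCharacter.isIntegral g)) (H6.inv_natCast_mem hM hψ))
    · simpa [centralChar] using h2

variable {z t x y s f : G} {E : Subgroup G}

omit U in
theorem J4I.deg_mod (h : J4I z t x y s f E) {r e : ℕ}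
    (hre : (r, e) ∈ [(23, 22), (29, 28), (31, 10), (37, 12), (43, 14)]) :
    ∃ Y : Set (IrrCharacter G), Nat.card Y = (r - 1) / e ∧ ∀ ψ : IrrCharacter G,
      (charDegree ψ.1 % r = 0 ∨ charDegree ψ.1 % r = 1 ∨ charDegree ψ.1 % r = r - 1) ∨
      (ψ ∈ Y ∧ (charDegree ψ.1 % r = e ∨ charDegree ψ.1 % r = r - e)) := by
  haveI := Fintype.ofFinite G
  have hr : Big r := by
    simp only [List.mem_cons, Prod.mk.injEq, List.not_mem_nil, or_false] at hre
    unfold Big; tauto
  haveI : Fact r.Prime := ⟨hr.prime⟩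
  obtain ⟨M, hM⟩ := H6.exists_isPModular hr.prime
  obtain ⟨P⟩ : Nonempty (Sylow r G) := inferInstance
  obtain ⟨hC, hN⟩ := h.sylow_big hre P
  have hP : Nat.card P = r := H26.card_sylow_eq_of_not_sq_dvd P
    (by rw [h.ord]; rcases hr with rfl | rfl | rfl | rfl | rfl <;> norm_num)
    (by rw [h.ord]; rcases hr with rfl | rfl | rfl | rfl | rfl <;> norm_num)
  have he : (centralizer ((P : Subgroup G) : Set G)).relIndex
      (normalizer ((P : Subgroup G) : Set G)) = e := by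
    have := H11.card_mul_relIndex (le_normalizer (H := (P : Subgroup G)))
    rw [hN] at this
    rw [hC]
    exact Nat.eq_of_mul_eq_mul_left hr.prime.pos (by rw [← this]; congr 1; exact hP.symm)
  obtain ⟨X, Y, hB, -, -, hY, εX, ε, h1, h2, h3, -⟩ := S4441.result r M hM
    (by rcases hr with rfl | rfl | rfl | rfl | rfl <;> norm_num) P hP e he
  refine ⟨Y, hY, fun ψ => ?_⟩
  by_cases hd : r ∣ charDegree ψ.1
  · exact Or.inl (Or.inl (Nat.mod_eq_zero_of_dvd hd))
  have hψ := mem_principal hM (fun g g1 hg => by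
    have h4 := (centralizer ({g} : Set G)).card_mul_index
    have h5 : r ∣ Nat.card G := hP ▸ card_subgroup_dvd_card (P : Subgroup G)
    rw [← h4] at h5
    refine ((Nat.Prime.dvd_mul hr.prime).1 h5).resolve_left fun h6 => ?_
    obtain ⟨u, hu, ho⟩ := exists_ord hr.prime h6
    have h7 := mc' hu
    rw [(h.bigP r e hre u ho).1] at h7
    have h8 := ord_dvd h7
    rw [card_zp, ho] at h8
    rcases (Nat.dvd_prime hr.prime).1 h8 with e1 | e1
    · exact g1 (orderOf_eq_one_iff.1 e1)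
    · exact hg (e1 ▸ dvd_rfl)) hd
  rw [hB] at hψ
  simp only [List.mem_cons, Prod.mk.injEq, List.not_mem_nil, or_false] at hre
  rcases hψ with hψ | hψ
  · obtain ⟨k1, k2, -⟩ := h1 ψ hψ
    left; right
    unfold Int.ModEq at k2
    rcases hre with ⟨rfl, rfl⟩ | ⟨rfl, rfl⟩ | ⟨rfl, rfl⟩ | ⟨rfl, rfl⟩ | ⟨rfl, rfl⟩ <;>
      rcases k1 with k1 | k1 <;> rw [k1] at k2 <;> omega
  · refine Or.inr ⟨hψ, ?_⟩
    have k2 := h3 ψ hψ
    unfold Int.ModEq at k2
    rcases hre with ⟨rfl, rfl⟩ | ⟨rfl, rfl⟩ | ⟨rfl, rfl⟩ | ⟨rfl, rfl⟩ | ⟨rfl, rfl⟩ <;>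
      rcases h2 with rfl | rfl <;> omega

omit U in
theorem J4I.strong_deg (h : J4I z t x y s f E) (ψ : IrrCharacter G) :
    strong (charDegree ψ.1) = true := by
  obtain ⟨_, -, h1⟩ := h.deg_mod (r := 23) (e := 22) (by simp)
  obtain ⟨_, -, h2⟩ := h.deg_mod (r := 29) (e := 28) (by simp)
  obtain ⟨_, -, h3⟩ := h.deg_mod (r := 31) (e := 10) (by simp)
  obtain ⟨_, -, h4⟩ := h.deg_mod (r := 37) (e := 12) (by simp)
  obtain ⟨_, -, h5⟩ := h.deg_mod (r := 43) (e := 14) (by simp)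
  simp only [strong, Bool.and_eq_true, List.contains_iff_mem, List.mem_cons, List.not_mem_nil,
    or_false]
  refine ⟨⟨⟨⟨?_, ?_⟩, ?_⟩, ?_⟩, ?_⟩
  · have := (h1 ψ).imp_right And.right; omega
  · have := (h2 ψ).imp_right And.right; omega
  · have := (h3 ψ).imp_right And.right; omega
  · have := (h4 ψ).imp_right And.right; omega
  · have := (h5 ψ).imp_right And.right; omega

omit U in
theorem J4I.chis_deg (h : J4I z t x y s f E) (μ : Fin 5 → IrrCharacter G)
    (hμ : Function.Injective μ) (hd : ∀ i, charDegree (μ i).1 = charDegree (μ 0).1) :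
    chis (charDegree (μ 0).1) = true := by
  have k : ∀ r e : ℕ, (r, e) ∈ [(23, 22), (29, 28), (31, 10), (37, 12), (43, 14)] →
      charDegree (μ 0).1 % r = 0 ∨ charDegree (μ 0).1 % r = 1 ∨ charDegree (μ 0).1 % r = r - 1 := by
    intro r e hre
    obtain ⟨Y, hY, h1⟩ := h.deg_mod hre
    by_contra hn
    have h2 : ∀ i, μ i ∈ Y := fun i => ((h1 (μ i)).resolve_left (by rwa [hd])).1
    have h3 := Nat.card_le_card_of_injective (fun i => (⟨μ i, h2 i⟩ : Y))
      fun i j e => hμ (congrArg Subtype.val e)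
    simp only [List.mem_cons, Prod.mk.injEq, List.not_mem_nil, or_false] at hre
    rw [hY] at h3
    rcases hre with ⟨rfl, rfl⟩ | ⟨rfl, rfl⟩ | ⟨rfl, rfl⟩ | ⟨rfl, rfl⟩ | ⟨rfl, rfl⟩ <;> simp at h3
  simp only [chis, Bool.and_eq_true, List.contains_iff_mem, List.mem_cons, List.not_mem_nil,
    or_false]
  exact ⟨⟨⟨⟨k 23 22 (by simp), k 29 28 (by simp)⟩, k 31 10 (by simp)⟩, k 37 12 (by simp)⟩,
    k 43 14 (by simp)⟩

omit U in
theorem deg_sq_le (ψ : IrrCharacter G) : charDegree ψ.1 * charDegree ψ.1 ≤ Nat.card G := by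
  rw [← sq]
  exact (ψ.2.degree_sq_le_index_charCenter ψ.2.isCharacter.charDegree_cast.symm).trans
    (Nat.le_of_dvd Nat.card_pos (index_dvd_card _))

theorem sq_le_sum {ι : Type*} [Fintype ι] (v : ι → ℤ) (s : Finset ι) :
    ∑ i ∈ s, v i * v i ≤ ∑ i, v i * v i :=
  Finset.sum_le_univ_sum_of_nonneg fun _ => mul_self_nonneg _

theorem norm_two {ι : Type*} [Fintype ι] [DecidableEq ι] (v : ι → ℤ) (h : ∑ i, v i * v i = 2) :
    ∃ a b, a ≠ b ∧ (v a = 1 ∨ v a = -1) ∧ (v b = 1 ∨ v b = -1) ∧ ∀ k, k ≠ a → k ≠ b → v k = 0 := by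
  obtain ⟨a, ha⟩ : ∃ a, v a ≠ 0 := by
    by_contra hn
    push Not at hn
    simp [hn] at h
  have h1 := sq_le_sum v {a}
  rw [Finset.sum_singleton, h] at h1
  have h2 : v a = 1 ∨ v a = -1 := by
    have : v a ≤ 1 := by nlinarith
    have : -1 ≤ v a := by nlinarith
    omega
  have h3 : ∑ i, Function.update v a 0 i * Function.update v a 0 i = 1 := by
    rw [← Finset.add_sum_erase _ _ (Finset.mem_univ a)] at h ⊢
    rw [Finset.sum_congr rfl fun i hi => by rw [Function.update_of_ne (Finset.ne_of_mem_erase hi)],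
      Function.update_self]
    rcases h2 with e | e <;> rw [e] at h <;> omega
  obtain ⟨b, hb, hb'⟩ := exists_of_sum_mul_self_eq_one _ h3
  have hab : b ≠ a := by rintro rfl; simp at hb
  rw [Function.update_of_ne hab] at hb
  exact ⟨a, b, hab.symm, h2, hb, fun k k1 k2 => by simpa [Function.update_of_ne k1] using hb' k k2⟩

omit U in
theorem dec5 (v : Fin 5 → IrrCharacter G → ℤ)
    (hg : ∀ i j, ∑ ψ, v i ψ * v j ψ = if i = j then 3 else 2)
    (hd : ∀ i, ∑ ψ, (v i ψ : ℂ) * ψ.1 1 = 0) :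
    ∃ (ε δ1 δ2 : ℤ) (μ : Fin 5 → IrrCharacter G) (a b : IrrCharacter G), (ε = 1 ∨ ε = -1) ∧
      (δ1 = 1 ∨ δ1 = -1) ∧ (δ2 = 1 ∨ δ2 = -1) ∧ Function.Injective μ ∧ a ≠ b ∧
      (∀ i, v i a = -δ1 ∧ v i b = -δ2) ∧
      ∀ i (F : IrrCharacter G → ℂ), ∑ ψ, (v i ψ : ℂ) * F ψ = ε * F (μ i) - δ1 * F a - δ2 * F b := by
  classical
  haveI := Fintype.ofFinite G
  have hin : ∀ i j, classInner (∑ ψ : IrrCharacter G, ((v i ψ - v 0 ψ : ℤ) : ℂ) • ψ.1)
      (∑ ψ : IrrCharacter G, ((v j ψ - v 0 ψ : ℤ) : ℂ) • ψ.1) =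
      (((if i = j then 3 else 2) - (if i = 0 then 3 else 2) - (if 0 = j then 3 else 2) + 3 : ℤ) : ℂ) := by
    intro i j
    rw [classInner_sum_irr, ← hg i j, ← hg i 0, ← hg 0 j, show (3 : ℤ) = ∑ ψ, v 0 ψ * v 0 ψ by
      rw [hg]; simp]
    simp only [map_intCast]
    push_cast
    simp only [← Finset.sum_sub_distrib, ← Finset.sum_add_distrib]
    exact Finset.sum_congr rfl fun ψ _ => by ring
  obtain ⟨ε, hε, μ, hμ, hinj, hτ⟩ := H5.exists_sign_of_gram (0 : Fin 5)
    (fun i => ∑ ψ : IrrCharacter G, ((v i ψ - v 0 ψ : ℤ) : ℂ) • ψ.1) (by simp)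
    (fun i => isGen_iff_exists_int.2 ⟨_, rfl⟩)
    (fun i => by
      simp only [Finset.sum_apply, Pi.smul_apply, smul_eq_mul, Int.cast_sub, sub_mul,
        Finset.sum_sub_distrib, hd, sub_zero])
    (fun i hi => by rw [hin]; simp [hi, hi.symm])
    (fun i j hi hj hij => by rw [hin]; simp [hi, hj.symm, hij])
  obtain ⟨e, rfl, he⟩ : ∃ e : ℤ, (e : ℂ) = ε ∧ (e = 1 ∨ e = -1) := by
    rcases hε with rfl | rfl
    · exact ⟨1, by simp, Or.inl rfl⟩
    · exact ⟨-1, by simp, Or.inr rfl⟩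
  let m : Fin 5 → IrrCharacter G := fun i => ⟨μ i, hμ i⟩
  have hm : Function.Injective m := fun i j h => hinj (congrArg Subtype.val h)
  have k1 : ∀ i ψ, v i ψ = v 0 ψ + e * ((if ψ = m i then 1 else 0) - if ψ = m 0 then 1 else 0) := by
    intro i ψ
    have h1 := congrArg (fun F => classInner F ψ.1) (hτ i)
    simp only [classInner_sum_irr_left, classInner_smul_left, classInner_sub_left] at h1
    rw [show μ i = (m i).1 from rfl, show μ 0 = (m 0).1 from rfl, irr_classInner,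
      irr_classInner] at h1
    have h2 : v i ψ - v 0 ψ = e * ((if m i = ψ then 1 else 0) - if m 0 = ψ then 1 else 0) := by
      apply Int.cast_injective (α := ℂ)
      rw [h1]; push_cast; rfl
    simp only [eq_comm (a := ψ)]
    omega
  have k2 : ∀ i, i ≠ 0 → v 0 (m i) = v 0 (m 0) - e := by
    intro i hi
    have h1 := hg 0 i
    have h2 := hg 0 0
    simp only [k1 i, mul_add, Finset.sum_add_distrib, h2, mul_sub, Finset.sum_sub_distrib,
      mul_ite, mul_one, mul_zero, Finset.sum_ite_eq', Finset.mem_univ, if_true, hi.symm,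
      if_false] at h1
    rcases he with rfl | rfl <;> omega
  have k3 : v 0 (m 0) = e := by
    have h1 := sq_le_sum (v 0) (Finset.univ.map ⟨m, hm⟩)
    rw [hg, Finset.sum_map, Fin.sum_univ_five] at h1
    simp only [Function.Embedding.coeFn_mk, k2 1 (by simp), k2 2 (by simp), k2 3 (by simp),
      k2 4 (by simp), if_true] at h1
    rcases he with rfl | rfl <;> nlinarith
  have k4 : ∀ i, Function.update (v 0) (m 0) 0 (m i) = 0 := fun i => by
    by_cases hi : i = 0
    · simp [hi]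
    · rw [Function.update_of_ne (hm.ne hi), k2 i hi, k3, sub_self]
  obtain ⟨a, b, hab, ha, hb, hk⟩ := norm_two (Function.update (v 0) (m 0) 0) (by
    have h := hg 0 0
    rw [← Finset.add_sum_erase _ _ (Finset.mem_univ (m 0))] at h ⊢
    rw [Finset.sum_congr rfl fun i hi => by rw [Function.update_of_ne (Finset.ne_of_mem_erase hi)]]
    rw [k3] at h
    rcases he with rfl | rfl <;> simp at h ⊢ <;> omega)
  have ma : ∀ i, a ≠ m i := by rintro i rfl; rw [k4] at ha; omega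
  have mb : ∀ i, b ≠ m i := by rintro i rfl; rw [k4] at hb; omega
  rw [Function.update_of_ne (ma 0)] at ha
  rw [Function.update_of_ne (mb 0)] at hb
  have k5 : ∀ i ψ, v i ψ = (if ψ = m i then e else 0) + (if ψ = a then v 0 a else 0) +
      (if ψ = b then v 0 b else 0) := by
    intro i ψ
    rw [k1 i]
    by_cases h0 : ψ = m 0
    · subst h0
      simp [k3, (ma 0).symm, (mb 0).symm, mul_sub]
    · by_cases h1 : ψ = a
      · subst h1; simp [ma, hab]
      · by_cases h2 : ψ = b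
        · subst h2; simp [mb, h1]
        · have := hk ψ h1 h2
          rw [Function.update_of_ne h0] at this
          simp [this, h0, h1, h2]
  refine ⟨e, -v 0 a, -v 0 b, m, a, b, he, by omega, by omega, hm, hab, fun i => ⟨?_, ?_⟩,
    fun i F => ?_⟩
  · rw [k5 i]; simp [ma, hab]
  · rw [k5 i]; simp [mb, hab.symm]
  · simp only [k5 i]
    push_cast
    simp [add_mul, Finset.sum_add_distrib]

end Cfsg.Agent.J4A
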