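import Cfsg.Agent.J4A.Ab1
import Cfsg.Agent.J4A.Chr2

set_option autoImplicit false
open Subgroup

namespace Cfsg.Agent.J4A
open H11 H4 MulAction

variable {G : Type*} [Group G] [Finite G] {z t x y s f : G} {E : Subgroup G}

local notation "𝐂[" a "]" => centralizer ({a} : Set G)
local notation "𝐍[" A "]" => normalizer ((A : Subgroup G) : Set G)

/-- the stabiliser of a character, as a subgroup of `G` -/
noncomputable def Sg {U : Subgroup G} (κ : IrrCharacter U) : Subgroup G :=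
  (stabilizer 𝐍[U] κ).map (𝐍[U]).subtype

omit [Finite G] in
theorem mem_Sg {U : Subgroup G} {κ : IrrCharacter U} {n : G} :
    n ∈ Sg κ ↔ ∃ hn : n ∈ 𝐍[U], (⟨n, hn⟩ : 𝐍[U]) • κ = κ :=
  ⟨by rintro ⟨a, ha, rfl⟩; exact ⟨a.2, ha⟩, fun ⟨hn, h⟩ => ⟨⟨n, hn⟩, h, rfl⟩⟩

omit [Finite G] in
theorem Sg_le {U : Subgroup G} {κ : IrrCharacter U} : Sg κ ≤ 𝐍[U] := map_subtype_le _

omit [Finite G] in
theorem card_orbit {U : Subgroup G} (κ : IrrCharacter U) :
    (orbit 𝐍[U] κ).ncard * Nat.card (Sg κ) = Nat.card 𝐍[U] := by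
  rw [Sg, card_map_subtype, ← index_stabilizer, mul_comm, card_mul_index]

theorem AB.comm (hab : AB y) : ∀ a b : OU y, a * b = b * a :=
  fun a b => Subtype.ext (hab _ a.2 _ b.2)

theorem AB.triv (hab : AB y) {κ : IrrCharacter (OU y)} {n : G} (hn : n ∈ Sg κ) :
    Triv κ (cm (OU y) hab n (Sg_le hn)).range :=
  fix_iff.1 (mem_Sg.1 hn).2

theorem AB.U_Sg (hab : AB y) (κ : IrrCharacter (OU y)) : OU y ≤ Sg κ := fun u hu =>
  mem_Sg.2 ⟨le_normalizer hu, (fix_iff (hU := hab)).2 (by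
    rintro v ⟨w, hw⟩
    have : v = 1 := Subtype.ext (by
      rw [← hw, cm_apply, hab u hu _ w.2, mul_inv_cancel_right, inv_mul_cancel]; rfl)
    rw [this, κ.2.apply_one_eq_one_of_comm hab.comm])⟩

namespace J4I
variable (h : J4I z t x y s f E) (hab : AB y) {κ : IrrCharacter (OU y)}
include h hab

theorem s5 {n : G} (hn : n ∈ Sg κ) (ho : orderOf n = 5) : κ = irrOne _ := by
  have h1 := card_cm (U := OU y) (hU := hab) (hn := Sg_le hn)
  have h2 : Nat.card (OU y ⊓ 𝐂[n] : Subgroup G) = 1 := by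
    by_contra h3
    have h4 := card_dvd_of_le (inf_le_left : OU y ⊓ 𝐂[n] ≤ _)
    rw [h.cardO, show 1331 = 11 ^ 3 by norm_num] at h4
    obtain ⟨k, -, hk⟩ := (Nat.dvd_prime_pow (by norm_num)).1 h4
    obtain ⟨v, hv, hvo⟩ := exists_ord (H := OU y ⊓ 𝐂[n]) (p := 11) (by norm_num)
      (hk ▸ dvd_pow_self _ (by rintro rfl; exact h3 hk))
    exact h.not57 (Or.inl ho) hvo hv.2
  rw [h2, mul_one] at h1
  exact ((hab.triv hn).mono (eq_of_le_card cm_le h1.ge).ge).eq_one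

theorem sY {n : G} (hn : n ∈ Sg κ) (hy : n ∉ 𝐂[y]) : Triv κ (zpowers y) := by
  have h1 : y⁻¹ * (n * y * n⁻¹) ∈ zpowers y := mul_mem (inv_mem (mem_zpowers y))
    (conj_mem_of_mem_normalizer (h.NU hab ▸ Sg_le hn) (mem_zpowers y))
  rw [← zp_eq (by norm_num) h.cardY h1 (fun e => hy (mc_of_conj (inv_mul_eq_one.1 e).symm))]
  exact (hab.triv hn).mono (zpowers_le.2 ⟨⟨y, h.y_O⟩, rfl⟩)

theorem sW {n : G} (hn : n ∈ Sg κ) (hy : n ∈ 𝐂[y]) (ho : orderOf n = 2 ∨ orderOf n = 3) :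
    Triv κ (WW z y hab) := h.range_W hab hy ho ▸ hab.triv hn

theorem sC (hW : ¬ Triv κ (WW z y hab)) : Sg κ ⊓ 𝐂[y] = OU y := by
  refine (eq_of_le_card (le_inf (hab.U_Sg κ) OU_le) (Nat.le_of_dvd Nat.card_pos ?_)).symm
  have h1 := card_dvd_of_le (inf_le_right : Sg κ ⊓ 𝐂[y] ≤ _)
  rw [h.cardC'] at h1
  rw [h.cardO, show 1331 = 11 ^ 3 by norm_num]
  refine dvd_pow_of_prime (by norm_num) Nat.card_pos.ne' h1 (by norm_num) fun p hp hd => ?_
  obtain ⟨a, ha, ho⟩ := exists_ord hp hd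
  have h2 : p ∣ 2 ^ 3 * 3 * 11 ^ 3 := hd.trans h1
  rcases (Nat.Prime.dvd_mul hp).1 h2 with h3 | h3
  · refine (hW (h.sW hab ha.1 ha.2 ?_)).elim
    rcases (Nat.Prime.dvd_mul hp).1 h3 with h4 | h4
    · exact Or.inl (ho.trans ((Nat.prime_dvd_prime_iff_eq hp Nat.prime_two).1 (hp.dvd_of_dvd_pow h4)))
    · exact Or.inr (ho.trans ((Nat.prime_dvd_prime_iff_eq hp Nat.prime_three).1 h4))
  · exact (Nat.prime_dvd_prime_iff_eq hp (by norm_num)).1 (hp.dvd_of_dvd_pow h3)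

theorem sY' (hY : ¬ Triv κ (zpowers y)) : Sg κ ≤ 𝐂[y] := fun _ hn =>
  by_contra fun hy => hY (h.sY hab hn hy)

theorem s_reg (hY : ¬ Triv κ (zpowers y)) (hW : ¬ Triv κ (WW z y hab)) : Sg κ = OU y :=
  (inf_eq_left.2 (h.sY' hab hY)).symm.trans (h.sC hab hW)

theorem not_both (hY : Triv κ (zpowers y)) (hW : Triv κ (WW z y hab)) : κ = irrOne _ :=
  ((hY.sup (B := WW z y hab) hab.comm h.Y_le (fun _ hu => hu.1) hW).mono (h.YW_sup hab).ge).eq_one

theorem cardNU : Nat.card 𝐍[OU y] = 319440 := by rw [h.NU hab, h.cardN]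

theorem ncardY : {κ : IrrCharacter (OU y) | Triv κ (zpowers y)}.ncard = 121 := by
  have := card_triv hab.comm h.Y_le
  rw [h.cardY, h.cardO] at this
  rw [← Nat.card_coe_set_eq]
  change Nat.card {κ : IrrCharacter (OU y) // Triv κ (zpowers y)} = _
  omega

theorem ncardW : {κ : IrrCharacter (OU y) | Triv κ (WW z y hab)}.ncard = 11 := by
  have := card_triv (A := WW z y hab) hab.comm fun _ hu => hu.1
  rw [h.cardW, h.cardO] at this
  rw [← Nat.card_coe_set_eq]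
  change Nat.card {κ : IrrCharacter (OU y) // Triv κ (WW z y hab)} = _
  omega

omit h hab in
theorem smul_one' (n : 𝐍[OU y]) : n • irrOne (OU y) = irrOne (OU y) := rfl

omit h hab in
theorem triv_one (A : Subgroup G) : Triv (irrOne (OU y)) A := fun _ _ => rfl

theorem ncardM : ({κ : IrrCharacter (OU y) | Triv κ (zpowers y)} \ {irrOne _}).ncard = 120 := by
  rw [Set.ncard_sdiff_singleton_of_mem (triv_one _), h.ncardY hab]

theorem orb_sub (hY : Triv κ (zpowers y)) (h1 : κ ≠ irrOne _) :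
    orbit 𝐍[OU y] κ ⊆ {κ : IrrCharacter (OU y) | Triv κ (zpowers y)} \ {irrOne _} := by
  rintro _ ⟨n, rfl⟩
  exact ⟨hY.smul n (h.NU hab ▸ n.2), fun e => h1 ((smul_left_cancel_iff n).1 e)⟩

theorem s_mu (hY : Triv κ (zpowers y)) (h1 : κ ≠ irrOne _) : (OU y).relIndex (Sg κ) = 2 := by
  have h2 := h.sC hab fun hW => h1 (h.not_both hab hY hW)
  have h3 : (OU y).relIndex (Sg κ) ∣ 10 := by
    rw [← congrArg (relIndex · (Sg κ)) h2, inf_relIndex_left, ← h.idx10, ← h.NU hab, ← relIndex_subgroupOf Sg_le]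
    haveI : ((𝐂[y]).subgroupOf 𝐍[OU y]).Normal :=
      (normal_subgroupOf_iff_le_normalizer OU_norm').2 (h.NU hab ▸ cent_normal y)
    exact relIndex_dvd_index_of_normal _ _
  have h4 := card_mul_relIndex (hab.U_Sg κ)
  have h5 : ¬ 5 ∣ (OU y).relIndex (Sg κ) := fun h5 => by
    obtain ⟨a, ha, ho⟩ := exists_ord (H := Sg κ) Nat.prime_five (h4 ▸ h5.mul_left _)
    exact h1 (h.s5 hab ha ho)
  have h6 := Set.ncard_le_ncard (h.orb_sub hab hY h1)
  have h7 := card_orbit κ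
  rw [h.ncardM hab] at h6
  rw [h.cardNU hab, ← h4, h.cardO] at h7
  generalize (OU y).relIndex (Sg κ) = r at *
  have := Nat.le_of_dvd (by norm_num) h3
  interval_cases r <;> omega

theorem card_mu (hY : Triv κ (zpowers y)) (h1 : κ ≠ irrOne _) : Nat.card (Sg κ) = 2662 := by
  rw [← card_mul_relIndex (hab.U_Sg κ), h.s_mu hab hY h1, h.cardO]

theorem orb_mu (hY : Triv κ (zpowers y)) (h1 : κ ≠ irrOne _) :
    orbit 𝐍[OU y] κ = {κ : IrrCharacter (OU y) | Triv κ (zpowers y)} \ {irrOne _} := by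
  refine Set.eq_of_subset_of_ncard_le (h.orb_sub hab hY h1) ?_
  have h7 := card_orbit κ
  rw [h.cardNU hab, h.card_mu hab hY h1] at h7
  rw [h.ncardM hab]; omega

theorem inv_mu (hY : Triv κ (zpowers y)) (h1 : κ ≠ irrOne _) {n : G} (hn : n ∈ Sg κ)
    (ho : orderOf n = 2) : Nat.card (cm (OU y) hab n (Sg_le hn)).range = 121 ∧ IsConj t n := by
  have h2 : Nat.card (OU y ⊓ 𝐂[n] : Subgroup G) ≠ 1 := fun h2 => by
    have h3 := card_cm (U := OU y) (hU := hab) (hn := Sg_le hn)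
    rw [h2, mul_one] at h3
    exact h1 ((hab.triv hn).mono (eq_of_le_card cm_le h3.ge).ge).eq_one
  refine ⟨h.card_range _ (Or.inl ho) h2, (h.inv n ho).resolve_left fun hz => ?_⟩
  have h3 := ((Nat.dvd_prime (by norm_num)).1 (h.cent11 (Or.inl ho) h.O_pg)).resolve_left h2
  obtain ⟨v, hv, hvo⟩ := exists_ord (H := OU y ⊓ 𝐂[n]) (p := 11) (by norm_num) (by rw [h3])
  have h4 := h.yt_eq (h.NU hab) (fun u hu => mc.2 (hab u hu v hv.1)) (h.ztype hz hvo hv.2)
  refine h1 (h.not_both hab hY (h.sW hab hn ?_ (Or.inl ho)))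
  rw [← cent_zp, ← h4, cent_zp]; exact mc' hv.2

theorem cnt_mu (hY : Triv κ (zpowers y)) (h1 : κ ≠ irrOne _) :
    Nat.card {n : 𝐍[OU y] // IsConj t n ∧ n • κ = κ} = 121 := by
  obtain ⟨n0, hn0, ho⟩ := exists_ord (H := Sg κ) Nat.prime_two (by rw [h.card_mu hab hY h1]; norm_num)
  have hodd : ∀ n : G, orderOf n = 2 → n ∉ OU y := fun n hn hU => by
    have := ord_dvd hU
    rw [hn, h.cardO] at this; norm_num at this
  have hoc : ∀ n : G, IsConj t n → orderOf n = 2 := fun n hn => by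
    obtain ⟨g, rfl⟩ := isConj_iff.1 hn
    rw [ord_conj, h.t2]
  have e0 : n0⁻¹ = n0 := inv_eq_of_mul_eq_one_right (sq1 ho)
  rw [← (h.inv_mu hab hY h1 hn0 ho).1]
  symm
  refine Nat.card_congr (Equiv.ofBijective (fun w => ⟨⟨w.1 * n0, Sg_le (mul_mem
    (hab.U_Sg κ (cm_le w.2)) hn0)⟩, (h.inv_mu hab hY h1 (mul_mem (hab.U_Sg κ (cm_le w.2)) hn0)
      (ord2 ?_ ?_)).2, (mem_Sg.1 (mul_mem (hab.U_Sg κ (cm_le w.2)) hn0)).2⟩) ⟨?_, ?_⟩)
  · have := ((mem_cm (sq1 ho) h.odd_O).1 w.2).2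
    rw [e0] at this
    calc w.1 * n0 * (w.1 * n0) = w.1 * (n0 * w.1 * n0) := by group
      _ = 1 := by rw [this, mul_inv_cancel]
  · intro e
    exact hodd n0 ho (by simpa [eq_inv_of_mul_eq_one_right e] using cm_le w.2)
  · intro a b e
    exact Subtype.ext (mul_right_cancel (congrArg (fun n => (n.1 : G)) e))
  · rintro ⟨⟨n, hn⟩, h2, h3⟩
    have hnS : n ∈ Sg κ := mem_Sg.2 ⟨hn, h3⟩
    have hno := hoc n h2
    have h4 : n * n0 ∈ OU y := by
      have := (mul_mem_iff_of_index_two (h.s_mu hab hY h1) (a := ⟨n, hnS⟩) (b := ⟨n0, hn0⟩)).2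
        (iff_of_false (hodd n hno) (hodd n0 ho))
      exact this
    refine ⟨⟨n * n0, (mem_cm (sq1 ho) h.odd_O).2 ⟨h4, ?_⟩⟩, Subtype.ext (Subtype.ext ?_)⟩
    · rw [mul_inv_rev, inv_eq_of_mul_eq_one_right (sq1 hno)]
      calc n0 * (n * n0) * n0⁻¹ = n0 * n := by group
        _ = _ := by rw [e0]
    · show n * n0 * n0 = n
      rw [mul_assoc, sq1 ho, mul_one]

theorem ncardB : ({κ : IrrCharacter (OU y) | Triv κ (zpowers y)} ∪
    {κ : IrrCharacter (OU y) | Triv κ (WW z y hab)}).ncard = 131 := by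
  have h1 := Set.ncard_union_add_ncard_inter {κ : IrrCharacter (OU y) | Triv κ (zpowers y)}
    {κ : IrrCharacter (OU y) | Triv κ (WW z y hab)}
  have h2 : {κ : IrrCharacter (OU y) | Triv κ (zpowers y)} ∩
      {κ : IrrCharacter (OU y) | Triv κ (WW z y hab)} = {irrOne _} := by
    ext κ
    exact ⟨fun e => h.not_both hab e.1 e.2, by rintro rfl; exact ⟨triv_one _, triv_one _⟩⟩
  rw [h2, h.ncardY hab, h.ncardW hab, Set.ncard_singleton] at h1
  omega

/-- five representatives of the regular orbits -/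
theorem five : ∃ ν : Fin 5 → IrrCharacter (OU y),
    (∀ i, ¬ Triv (ν i) (zpowers y) ∧ ¬ Triv (ν i) (WW z y hab)) ∧
    (∀ i j (n : 𝐍[OU y]), n • ν i = ν j → i = j) ∧
    ∀ κ : IrrCharacter (OU y), ¬ Triv κ (zpowers y) → ¬ Triv κ (WW z y hab) →
      ∃ i, ∃ n : 𝐍[OU y], n • ν i = κ := by
  classical
  set R : Finset (IrrCharacter (OU y)) :=
    Finset.univ.filter fun κ => ¬ Triv κ (zpowers y) ∧ ¬ Triv κ (WW z y hab) with hR
  have hinv : ∀ κ ∈ R, ∀ n : 𝐍[OU y], n • κ ∈ R := fun κ hκ n => by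
    simp only [hR, Finset.mem_filter, Finset.mem_univ, true_and] at hκ ⊢
    have hn : ((n⁻¹ : 𝐍[OU y]) : G) ∈ 𝐍[zpowers y] := h.NU hab ▸ n⁻¹.2
    exact ⟨fun e => hκ.1 (by simpa using e.smul n⁻¹ hn),
      fun e => hκ.2 (by simpa using e.smul n⁻¹ (h.W_norm hab hn))⟩
  have hc : R.card = 1200 := by
    have h1 := h.ncardB hab
    have h3 := Set.ncard_add_ncard_compl ({κ : IrrCharacter (OU y) | Triv κ (zpowers y)} ∪
      {κ : IrrCharacter (OU y) | Triv κ (WW z y hab)})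
    rw [card_irr_of_comm hab.comm, h.cardO] at h3
    have h4 : ({κ : IrrCharacter (OU y) | Triv κ (zpowers y)} ∪
      {κ : IrrCharacter (OU y) | Triv κ (WW z y hab)})ᶜ = R := by
      ext κ; simp [hR]
    rw [h4, Set.ncard_coe_finset] at h3
    omega
  set q : IrrCharacter (OU y) → orbitRel.Quotient 𝐍[OU y] (IrrCharacter (OU y)) := Quotient.mk _
  have hq : ∀ a b, q a = q b ↔ a ∈ orbit 𝐍[OU y] b := fun a b => Quotient.eq
  have h5 : (R.image q).card = 5 := by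
    have h1 := Finset.card_eq_sum_card_image q R
    rw [hc, Finset.sum_congr rfl (g := fun _ => 240), Finset.sum_const, smul_eq_mul] at h1
    · omega
    intro o ho
    obtain ⟨κ, hκ, rfl⟩ := Finset.mem_image.1 ho
    have h2 := card_orbit κ
    have hκ' := (Finset.mem_filter.1 hκ).2
    rw [h.s_reg hab hκ'.1 hκ'.2, h.cardO, h.cardNU hab] at h2
    have h3 : orbit 𝐍[OU y] κ = ↑(R.filter fun a => q a = q κ) := by
      ext a
      simp only [Finset.coe_filter, Set.mem_ofPred_eq, hq]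
      exact ⟨fun e => ⟨by obtain ⟨n, rfl⟩ := e; exact hinv κ hκ n, e⟩, fun e => e.2⟩
    rw [h3, Set.ncard_coe_finset] at h2
    omega
  let e := (R.image q).equivFinOfCardEq h5
  choose ν hν hν' using fun i => Finset.mem_image.1 (e.symm i).2
  refine ⟨ν, fun i => (Finset.mem_filter.1 (hν i)).2, fun i j n hn => e.symm.injective
    (Subtype.ext ?_), fun κ hY hW => ?_⟩
  · rw [← hν', ← hν', eq_comm, hq]; exact ⟨n, hn⟩
  · have hκ : q κ ∈ R.image q := Finset.mem_image_of_mem _ (by simp [hR, hY, hW])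
    refine ⟨e ⟨_, hκ⟩, (hq _ _).1 ?_⟩
    rw [hν']; simp

end J4I
end Cfsg.Agent.J4A
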