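import Cfsg.Agent.J4A.Ab2

set_option autoImplicit false
open Subgroup
open scoped ComplexConjugate

namespace Cfsg.Agent.J4A
open H11 H4 MulAction

theorem alg {g ct ix e1 e2 c : ℕ} {ε δ1 δ2 A B C : ℤ} (p1 : 0 < e1) (p2 : 0 < e2) (p3 : 0 < c)
    (pg : 0 < g) (hix : ct * ix = g) (d1 : δ1 = 1 ∨ δ1 = -1) (d2 : δ2 = 1 ∨ δ2 = -1)
    (d3 : ε = 1 ∨ ε = -1) (he : ε * c = δ1 * e1 + δ2 * e2) (ht : ε * C = δ1 * A + δ2 * B)
    (hs : (-(121 * 121) : ℂ) = (ix : ℂ) * ix / g * 1331 *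
      (ε * (C * C / c) - δ1 * (A * A / e1) - δ2 * (B * B / e2))) :
    ∃ D : ℕ, g * (D * D) = 11 * ct ^ 2 * (e1 * e2 * c) := by
  have q1 : (e1 : ℂ) ≠ 0 := Nat.cast_ne_zero.2 p1.ne'
  have q2 : (e2 : ℂ) ≠ 0 := Nat.cast_ne_zero.2 p2.ne'
  have q3 : (c : ℂ) ≠ 0 := Nat.cast_ne_zero.2 p3.ne'
  have q4 : (g : ℂ) ≠ 0 := Nat.cast_ne_zero.2 pg.ne'
  have h1 : (-(121 * 121) * (g * (e1 * e2 * c)) : ℤ) = ix * ix * 1331 *
      (ε * C * C * e1 * e2 - δ1 * A * A * e2 * c - δ2 * B * B * e1 * c) := by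
    apply Int.cast_injective (α := ℂ)
    have hs' := congrArg (· * ((g : ℂ) * (e1 * e2 * c))) hs
    push_cast
    refine Eq.trans (by norm_num) (hs'.trans ?_)
    field_simp
  have hc : (c : ℤ) = ε * (δ1 * e1 + δ2 * e2) := by
    rw [← he]; rcases d3 with rfl | rfl <;> ring
  have hC : C = ε * (δ1 * A + δ2 * B) := by
    rw [← ht]; rcases d3 with rfl | rfl <;> ring
  have h2 : ε * C * C * e1 * e2 - δ1 * A * A * e2 * c - δ2 * B * B * e1 * c =
      -(ε * δ1 * δ2) * ((A * e2 - B * e1) * (A * e2 - B * e1)) := by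
    rw [hc, hC]
    rcases d1 with rfl | rfl <;> rcases d2 with rfl | rfl <;> rcases d3 with rfl | rfl <;> ring
  have hix' : (ct : ℤ) * ix = g := by exact_mod_cast hix
  have i0 : (ix : ℤ) ≠ 0 := by rintro e; rw [e] at hix'; omega
  rw [h2, ← Int.natAbs_mul_self' (A * e2 - B * e1)] at h1
  refine ⟨(A * e2 - B * e1).natAbs, ?_⟩
  generalize (A * e2 - B * e1).natAbs = D at *
  have h3 : (ε * δ1 * δ2) * (g * (D * D)) = (11 * ct ^ 2 * (e1 * e2 * c) : ℤ) := by
    apply mul_left_cancel₀ (mul_ne_zero i0 (by norm_num : (1331 : ℤ) ≠ 0))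
    rw [← hix'] at h1 ⊢
    linear_combination (ct : ℤ) * h1
  have h4 : ε * δ1 * δ2 = 1 ∨ ε * δ1 * δ2 = -1 := by
    rcases d1 with rfl | rfl <;> rcases d2 with rfl | rfl <;> rcases d3 with rfl | rfl <;> simp
  rcases h4 with h4 | h4 <;> rw [h4] at h3
  · rw [one_mul] at h3; exact_mod_cast h3
  · exfalso
    have c0 : 0 < ct := Nat.pos_of_ne_zero (by rintro rfl; omega)
    have : (0 : ℤ) < 11 * ct ^ 2 * (e1 * e2 * c) := by positivity
    have : (0 : ℤ) ≤ g * (D * D) := by positivity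
    omega

variable {G : Type*} [Group G] [Finite G] {z t x y s f : G} {E : Subgroup G}

local notation "𝐂[" a "]" => centralizer ({a} : Set G)
local notation "𝐍[" A "]" => normalizer ((A : Subgroup G) : Set G)

omit [Finite G] in
theorem TT_Sg {U : Subgroup G} (κ : IrrCharacter U) : TT κ κ = Nat.card (Sg κ) := by
  rw [TT_self, Sg, card_map_subtype]

namespace J4I
variable (h : J4I z t x y s f E) (hab : AB y) [Fintype G] [Fintype (OU y)]
  {μ : IrrCharacter (OU y)} (hY : Triv μ (zpowers y)) (h1 : μ ≠ irrOne _)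
include h hab hY h1

theorem bnd (κ : IrrCharacter (OU y)) (ψ : IrrCharacter G) :
    1331 * ((mz ψ κ - mz ψ μ) * (mz ψ κ - mz ψ μ)) ≤ Nat.card (Sg κ) + 2662 := by
  have k := K1 hab.comm (h.ti hab) κ μ κ μ
  rw [TT_Sg, TT_Sg, h.card_mu hab hY h1, h.cardO] at k
  have := sq_le_sum (fun ψ => mz ψ κ - mz ψ μ) {ψ}
  simp only [Finset.sum_singleton] at this
  push_cast at k
  omega

theorem degw (ψ : IrrCharacter G) {δ : ℤ} (d : δ = 1 ∨ δ = -1)
    (hψ : ∀ κ : IrrCharacter (OU y), ¬ Triv κ (zpowers y) → ¬ Triv κ (WW z y hab) → mz ψ κ - mz ψ μ = -δ) :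
    (δ = 1 → charDegree ψ.1 ∈ Lp) ∧ (δ = -1 → charDegree ψ.1 ∈ Ln) := by
  classical
  set A : Finset (IrrCharacter (OU y)) := Finset.univ.filter fun κ => Triv κ (WW z y hab) with hA
  set B : Finset (IrrCharacter (OU y)) :=
    Finset.univ.filter fun κ => Triv κ (zpowers y) ∨ Triv κ (WW z y hab) with hB
  have cA : A.card = 11 := by
    rw [← h.ncardW hab, ← Set.ncard_coe_finset]; congr 1; ext; simp [hA]
  have cB : B.card = 131 := by
    rw [← h.ncardB hab, ← Set.ncard_coe_finset]; congr 1; ext; simp [hB]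
  have cU : Fintype.card (IrrCharacter (OU y)) = 1331 := by
    rw [← Nat.card_eq_fintype_card, card_irr_of_comm hab.comm, h.cardO]
  have e1 : (charDegree ψ.1 : ℤ) = 1331 * (mz ψ μ - δ) + 131 * δ + ∑ κ ∈ A, (mz ψ κ - mz ψ μ) := by
    rw [deg_eq hab.comm, Finset.sum_congr rfl (g := fun κ => (mz ψ μ - δ) +
      (if Triv κ (zpowers y) ∨ Triv κ (WW z y hab) then δ else 0) +
      (if Triv κ (WW z y hab) then mz ψ κ - mz ψ μ else 0)), Finset.sum_add_distrib,
      Finset.sum_add_distrib, ← Finset.sum_filter, ← Finset.sum_filter, Finset.sum_const,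
      Finset.sum_const, Finset.card_univ, cU, cB]
    · simp [hA]
    intro κ _
    by_cases w : Triv κ (WW z y hab)
    · simp [w]
    by_cases v : Triv κ (zpowers y)
    · have : κ ∈ orbit 𝐍[OU y] μ := by
        rw [h.orb_mu hab hY h1]
        exact ⟨v, by rintro rfl; exact w (triv_one _)⟩
      obtain ⟨n, rfl⟩ := this
      simp [w, v, mz_smul]
    · have := hψ κ v w
      simp only [w, v, or_self, if_false]; omega
  have e2 : |∑ κ ∈ A, (mz ψ κ - mz ψ μ)| ≤ 65 := by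
    refine (Finset.abs_sum_le_sum_abs _ _).trans ?_
    have : ∑ κ ∈ A, |mz ψ κ - mz ψ μ| ≤ ∑ κ ∈ A, (5 + if κ = irrOne _ then 10 else 0 : ℤ) := by
      refine Finset.sum_le_sum fun κ hκ => ?_
      have b := h.bnd hab hY h1 κ ψ
      split_ifs with k1
      · have : Nat.card (Sg κ) ≤ 319440 := h.cardNU hab ▸ card_le_of_le Sg_le
        rw [abs_le]; constructor <;> nlinarith
      · have : Nat.card (Sg κ) ≤ 31944 := h.cardC' ▸ card_le_of_le (h.sY' hab fun v =>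
          k1 (h.not_both hab v (Finset.mem_filter.1 hκ).2))
        rw [abs_le]; constructor <;> nlinarith
    rw [Finset.sum_add_distrib, Finset.sum_const, cA, Finset.sum_ite_eq'] at this
    split_ifs at this <;> simp at this <;> omega
  rw [abs_le] at e2
  refine win (a := 131 + δ * ∑ κ ∈ A, (mz ψ κ - mz ψ μ)) (h.ord ▸ ψ.2.charDegree_dvd_card)
    (h.ord ▸ deg_sq_le ψ) (h.strong_deg ψ) ?_ ?_ ?_ <;> rcases d with rfl | rfl <;> omega

theorem invsum {ν : IrrCharacter (OU y)} (vY : ¬ Triv ν (zpowers y)) (vW : ¬ Triv ν (WW z y hab)) :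
    ∑ u : OU y, (ν.1 u - μ.1 u) *
      (Nat.card {p : G × G // IsConj t p.1 ∧ IsConj t p.2 ∧ p.1 * p.2 = u} : ℂ) = -(121 * 121) := by
  classical
  rw [K3 hab.comm (h.ti hab) h.odd_O ν μ h.t2, Finset.sum_congr rfl (g := fun n : 𝐍[OU y] =>
    if IsConj t n ∧ n • μ = μ then (-121 : ℂ) else 0), ← Finset.sum_filter, Finset.sum_const,
    ← Fintype.card_subtype, ← Nat.card_eq_fintype_card, h.cnt_mu hab hY h1]
  · norm_num
  rintro ⟨n, hn⟩ _
  by_cases c : IsConj t n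
  swap
  · simp only [c, if_false, false_and]
  have ho : orderOf n = 2 := by
    obtain ⟨g, rfl⟩ := isConj_iff.1 c
    rw [ord_conj, h.t2]
  have e : ∀ u : OU y, (if n * u * n⁻¹ = (u : G)⁻¹ then ν.1 u - μ.1 u else 0) =
      (if (u : G) ∈ (cm (OU y) hab n hn).range then ν.1 u else 0) -
      (if (u : G) ∈ (cm (OU y) hab n hn).range then μ.1 u else 0) := fun u => by
    simp only [mem_cm (sq1 ho) h.odd_O, u.2, true_and]
    split_ifs <;> simp
  simp only [c, if_true, true_and, e]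
  rw [Finset.sum_sub_distrib, sum_sub hab.comm ν cm_le, sum_sub hab.comm μ cm_le, ← fix_iff,
    ← fix_iff, if_neg]
  · split_ifs with c'
    · rw [(h.inv_mu hab hY h1 (mem_Sg.2 ⟨hn, c'⟩) ho).1]; norm_num
    · simp
  · intro c'
    have := ord_dvd (h.s_reg hab vY vW ▸ mem_Sg.2 ⟨hn, c'⟩ : n ∈ OU y)
    rw [ho, h.cardO] at this; norm_num at this

end J4I

theorem J4I.not_ab (h : J4I z t x y s f E) : ¬ AB y := fun hab => by
  classical
  letI := Fintype.ofFinite G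
  obtain ⟨ν, hν, hνi, hνc⟩ := h.five hab
  obtain ⟨μ, hY, h1⟩ := Set.nonempty_of_ncard_ne_zero (by rw [h.ncardM hab]; norm_num :
    ({κ : IrrCharacter (OU y) | Triv κ (zpowers y)} \ {irrOne _}).ncard ≠ 0)
  have hg : ∀ i j, ∑ ψ : IrrCharacter G, (mz ψ (ν i) - mz ψ μ) * (mz ψ (ν j) - mz ψ μ) =
      if i = j then 3 else 2 := fun i j => by
    have k := K1 hab.comm (h.ti hab) (ν i) μ (ν j) μ
    have z1 : ∀ i, TT μ (ν i) = 0 := fun i => TT_zero fun n e =>
      (hν i).1 (e ▸ Triv.smul hY n (h.NU hab ▸ n.2))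
    have z2 : TT (ν j) μ = 0 := TT_zero fun n e =>
      (hν j).1 (by simpa [← e] using Triv.smul hY n⁻¹ (h.NU hab ▸ n⁻¹.2))
    rw [z1, z2, TT_Sg, h.card_mu hab hY h1, h.cardO] at k
    split_ifs with c
    · subst c
      rw [TT_Sg, h.s_reg hab (hν i).1 (hν i).2, h.cardO] at k
      push_cast at k; omega
    · rw [TT_zero fun n e => c (hνi _ _ n e).symm] at k
      push_cast at k; omega
  have k1 : ∀ i, ∑ ψ : IrrCharacter G, ((mz ψ (ν i) - mz ψ μ : ℤ) : ℂ) * ψ.1 1 = 0 := fun i => by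
    rw [← K0 hab.comm (ν i) μ (g := 1) fun _ _ => rfl]
    exact Finset.sum_congr rfl fun ψ _ => by rw [← ψ.2.isCharacter.charDegree_cast]; simp
  obtain ⟨ε, δ1, δ2, χ, a, b, d3, d1, d2, hχ, -, hv, hF⟩ := dec5 _ hg k1
  have dg : ∀ i, ε * charDegree (χ i).1 = δ1 * charDegree a.1 + δ2 * charDegree b.1 := fun i => by
    have := hF i fun ψ => ψ.1 1
    rw [k1] at this
    apply Int.cast_injective (α := ℂ)
    push_cast
    simp only [(χ i).2.isCharacter.charDegree_cast, a.2.isCharacter.charDegree_cast,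
      b.2.isCharacter.charDegree_cast]
    linear_combination -this
  have val : ∀ ψ : IrrCharacter G, ∃ A : ℤ, ψ.1 t = A := fun ψ => by
    obtain ⟨k, -, hk⟩ := ψ.2.isCharacter.exists_int_of_sq_eq_one (g := t) (by rw [sq, sq1 h.t2])
      ψ.2.isCharacter.charDegree_cast.symm
    exact ⟨charDegree ψ.1 - 2 * k, by rw [hk]; push_cast; rfl⟩
  obtain ⟨A, hA⟩ := val a
  obtain ⟨B, hB⟩ := val b
  obtain ⟨C, hC⟩ := val (χ 0)
  have ht : ε * C = δ1 * A + δ2 * B := by
    have := hF 0 fun ψ => conj (ψ.1 t)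
    rw [K0 hab.comm (ν 0) μ (g := t) fun g hg => by
      have := ord_dvd hg
      rw [ord_conj, h.t2, h.cardO] at this; norm_num at this] at this
    simp only [hA, hB, hC, map_intCast] at this
    apply Int.cast_injective (α := ℂ)
    push_cast
    linear_combination -this
  have hs := K2 (ν 0) μ t
  rw [h.invsum hab hY h1 (hν 0).1 (hν 0).2, hF 0 fun ψ => ψ.1 t * ψ.1 t / ψ.1 1, h.cardO] at hs
  simp only [hA, hB, hC, ← (χ 0).2.isCharacter.charDegree_cast,
    ← a.2.isCharacter.charDegree_cast, ← b.2.isCharacter.charDegree_cast] at hs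
  obtain ⟨D, hD⟩ := alg a.2.charDegree_pos b.2.charDegree_pos (χ 0).2.charDegree_pos Nat.card_pos
    (card_mul_index 𝐂[t]) d1 d2 d3 (dg 0) ht (hs.trans (by norm_num))
  rw [h.ord, h.ct] at hD
  refine arith (h.degw hab hY h1 a d1 fun κ vY vW => ?_) (h.degw hab hY h1 b d2 fun κ vY vW => ?_)
    d1 d2 d3 (dg 0) (χ 0).2.charDegree_pos (h.chis_deg χ hχ fun i => ?_)
    (h.ord ▸ (χ 0).2.charDegree_dvd_card) hD
  · obtain ⟨i, n, rfl⟩ := hνc κ vY vW
    rw [mz_smul]; exact (hv i).1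
  · obtain ⟨i, n, rfl⟩ := hνc κ vY vW
    rw [mz_smul]; exact (hv i).2
  · have := (dg i).trans (dg 0).symm
    rcases d3 with rfl | rfl <;> omega

end Cfsg.Agent.J4A
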