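import Cfsg.Agent.J4A.U

set_option autoImplicit false
open Subgroup

namespace Cfsg.Agent.J4A
open H11

variable {G : Type*} [Group G] [Finite G] {z t x y s f : G} {E : Subgroup G}

local notation "𝐂[" a "]" => centralizer ({a} : Set G)
local notation "𝐍[" A "]" => normalizer ((A : Subgroup G) : Set G)

/-- divisors of `11^3·23·29·31·37·43` -/
def dl : List ℕ := [1, 11, 121, 1331].flatMap fun a => [1, 23].flatMap fun b =>
  [1, 29].flatMap fun c => [1, 31].flatMap fun d => [1, 37].flatMap fun e =>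
  [1, 43].map fun f => a * (b * (c * (d * (e * f))))

theorem mem_dl {n : ℕ} (h : n ∣ 43786049417) : n ∈ dl := by
  have e : (43786049417 : ℕ) = 11 ^ 3 * (23 * (29 * (31 * (37 * 43)))) := by norm_num
  rw [e] at h
  obtain ⟨a, n1, ha, h1, rfl⟩ := (Nat.dvd_mul).1 h
  obtain ⟨b, n2, hb, h2, rfl⟩ := (Nat.dvd_mul).1 h1
  obtain ⟨c, n3, hc, h3, rfl⟩ := (Nat.dvd_mul).1 h2
  obtain ⟨d, n4, hd, h4, rfl⟩ := (Nat.dvd_mul).1 h3
  obtain ⟨e, f, he, hf, rfl⟩ := (Nat.dvd_mul).1 h4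
  obtain ⟨k, hk, rfl⟩ := (Nat.dvd_prime_pow (by norm_num)).1 ha
  simp only [dl, List.mem_flatMap, List.mem_map]
  refine ⟨11 ^ k, by interval_cases k <;> simp, b, ?_, c, ?_, d, ?_, e, ?_, f, ?_, rfl⟩
  · simpa using (Nat.dvd_prime (by norm_num)).1 hb
  · simpa using (Nat.dvd_prime (by norm_num)).1 hc
  · simpa using (Nat.dvd_prime (by norm_num)).1 hd
  · simpa using (Nat.dvd_prime (by norm_num)).1 he
  · simpa using (Nat.dvd_prime (by norm_num)).1 hf

/-- the Sylow condition at `r'` -/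
def ok1 (n r : ℕ) : Bool :=
  (86775571046077562880 / n) % r == 1 &&
    dl.any fun c => c % r == 0 && n % c == 0 && (r - 1) % (n / c) == 0

def chk (r c d : ℕ) : Bool :=
  !(c % r == 0 && (r - 1) % d == 0 && 86775571046077562880 % (c * d) == 0 &&
    [23, 29, 31, 37, 43].all fun r' => c % r' != 0 || ok1 (c * d) r') ||
  (c == r && [(23, 22), (29, 28), (31, 10), (37, 12), (43, 14)].contains (r, d)) ||
  (c % 11 == 0 && (c * d) % 121 != 0) || (c == 1333 && d == 6)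

theorem chk_all : ([23, 29, 31, 37, 43].all fun r => dl.all fun c =>
    (List.range 43).all fun d => chk r c d) = true := by decide +kernel

/-- `u` generates a conjugate of `⟨y⟩` -/
def YT (y u : G) : Prop := ∃ g : G, cj g (zpowers u) = zpowers y

namespace J4I
variable (h : J4I z t x y s f E)
include h

theorem big_cent {u : G} {r : ℕ} (hr : Big r) (hu : orderOf u = r) :
    Nat.card 𝐂[u] ∣ 43786049417 := by
  refine dvd_big (h.ord ▸ card_subgroup_dvd_card _) fun p hp hd => ?_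
  obtain ⟨a, ha, ho⟩ := exists_ord hp hd
  rcases prime_dvd_cases hp (h.ord ▸ hd.trans (card_subgroup_dvd_card _)) with
    rfl | rfl | rfl | rfl | rfl | hb
  · exact (h.not_big (by tauto) hr hu (mc' ha)).elim
  · exact (h.not_big (by tauto) hr hu (mc' ha)).elim
  · exact (h.not_big (by tauto) hr hu (mc' ha)).elim
  · exact (h.not_big (by tauto) hr hu (mc' ha)).elim
  · exact Or.inl rfl
  · exact Or.inr hb

theorem big_syl {u : G} {r : ℕ} (hr : Big r) (hu : orderOf u = r) : IsSylIn r (zpowers u) ⊤ :=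
  haveI : Fact r.Prime := ⟨hr.prime⟩
  syl_zp hu (mem_top _) (by
    rw [card_top, h.ord]; rcases hr with rfl | rfl | rfl | rfl | rfl <;> norm_num)

theorem big_mod {u : G} {r : ℕ} (hr : Big r) (hu : orderOf u = r) :
    (86775571046077562880 / Nat.card 𝐍[zpowers u]) % r = 1 := by
  haveI : Fact r.Prime := ⟨hr.prime⟩
  have h1 := syl_mod (h.big_syl hr hu)
  have h2 := (𝐍[zpowers u]).card_mul_index
  rw [← h.ord, ← h2, Nat.mul_div_cancel_left _ Nat.card_pos, h1]
  exact Nat.mod_eq_of_lt hr.prime.one_lt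

theorem big_norm {u v : G} {r r' : ℕ} (hr : Big r) (hu : orderOf u = r) (hr' : Big r')
    (hv : orderOf v = r') (hc : v ∈ 𝐂[u]) : 𝐍[zpowers u] = 𝐍[zpowers v] :=
  le_antisymm ((cent_normal u).trans (normal_big (h.big_cent hr hu) hr' hv hc))
    ((cent_normal v).trans (normal_big (h.big_cent hr' hv) hr hu (mc' hc)))

theorem big_chk {u : G} {r : ℕ} (hr : Big r) (hu : orderOf u = r) :
    (Nat.card 𝐂[u] = r ∧ (r, (𝐂[u]).relIndex 𝐍[zpowers u]) ∈
      [(23, 22), (29, 28), (31, 10), (37, 12), (43, 14)]) ∨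
    (11 ∣ Nat.card 𝐂[u] ∧ ¬ 121 ∣ Nat.card 𝐂[u] * (𝐂[u]).relIndex 𝐍[zpowers u]) ∨
    (Nat.card 𝐂[u] = 1333 ∧ (𝐂[u]).relIndex 𝐍[zpowers u] = 6) := by
  have k := chk_all
  simp only [List.all_eq_true] at k
  have h1 := nc_dvd hr.prime hu
  have h2 := card_mul_relIndex (cent_le_norm (a := u))
  have hd : (𝐂[u]).relIndex 𝐍[zpowers u] < 43 := by
    have := Nat.le_of_dvd (by have := hr.prime.two_le; omega) h1
    rcases hr with rfl | rfl | rfl | rfl | rfl <;> omega
  have k2 := k r (by rcases hr with rfl | rfl | rfl | rfl | rfl <;> simp) _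
    (mem_dl (h.big_cent hr hu)) _ (List.mem_range.2 hd)
  have h3 : r ∣ Nat.card 𝐂[u] := hu ▸ ord_dvd (mc.2 rfl)
  have h4 : Nat.card 𝐂[u] * (𝐂[u]).relIndex 𝐍[zpowers u] ∣ 86775571046077562880 := by
    rw [h2, ← h.ord]; exact card_subgroup_dvd_card _
  have h5 : ∀ r' ∈ [23, 29, 31, 37, 43], Nat.card 𝐂[u] % r' ≠ 0 ∨
      ok1 (Nat.card 𝐂[u] * (𝐂[u]).relIndex 𝐍[zpowers u]) r' = true := by
    intro r' hr'
    have hb : Big r' := by simpa [Big] using hr'
    by_cases hd' : r' ∣ Nat.card 𝐂[u]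
    · right
      obtain ⟨v, hv, ho⟩ := exists_ord hb.prime hd'
      have e := h.big_norm hr hu hb ho hv
      have e2 := card_mul_relIndex (cent_le_norm (a := v))
      rw [h2, e]
      simp only [ok1, Bool.and_eq_true, beq_iff_eq, List.any_eq_true]
      refine ⟨h.big_mod hb ho, Nat.card 𝐂[v], mem_dl (h.big_cent hb ho),
        ⟨Nat.mod_eq_zero_of_dvd (ho ▸ ord_dvd (mc.2 rfl)), Nat.mod_eq_zero_of_dvd ⟨_, e2.symm⟩⟩,
        Nat.mod_eq_zero_of_dvd ?_⟩
      rw [← e2, Nat.mul_div_cancel_left _ Nat.card_pos]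
      exact nc_dvd hb.prime ho
    · left; exact fun e => hd' (Nat.dvd_of_mod_eq_zero e)
  simp only [chk, Bool.or_eq_true, Bool.not_eq_true', Bool.and_eq_true, beq_iff_eq,
    List.contains_iff_mem] at k2
  rcases k2 with ((k2 | k2) | k2) | k2
  · exfalso
    revert k2
    simp only [Bool.and_eq_false_iff, imp_false, not_or, Bool.not_eq_false, beq_iff_eq,
      List.all_eq_true, Bool.or_eq_true, bne_iff_ne]
    exact ⟨⟨⟨Nat.mod_eq_zero_of_dvd h3, Nat.mod_eq_zero_of_dvd h1⟩, Nat.mod_eq_zero_of_dvd h4⟩, h5⟩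
  · exact Or.inl k2
  · exact Or.inr (Or.inl ⟨Nat.dvd_of_mod_eq_zero k2.1,
      fun e => by simpa [Nat.mod_eq_zero_of_dvd e] using k2.2⟩)
  · exact Or.inr (Or.inr k2)

/-- centralizer order of an element generating a conjugate of `⟨y⟩` -/
theorem cent_ytype {u : G} (hg : YT y u) : Nat.card 𝐂[u] = 31944 := by
  obtain ⟨g, hg⟩ := hg
  rw [← h.cardC', ← cent_zp, ← cent_zp, ← hg, ← cj_centralizer, card_cj]

theorem cent_t {c v : G} (hc : IsConj t c) (hv : orderOf v = 11) (hcv : c ∈ 𝐂[v]) :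
    Nat.card (𝐂[c] ⊓ 𝐂[v] : Subgroup G) = 22 := by
  obtain ⟨g, rfl⟩ := isConj_iff.1 hc
  have h1 := h.ty (g⁻¹ * v * g⁻¹⁻¹) (by rw [ord_conj, hv]) (by
    have := mc.1 hcv
    rw [Commute, SemiconjBy]
    calc t * (g⁻¹ * v * g⁻¹⁻¹) = g⁻¹ * (g * t * g⁻¹ * v) * g := by group
      _ = _ := by rw [this]; group)
  rw [← card_cj g, cj_inf, cj_cent1, cj_cent1] at h1
  rw [← h1]
  congr 4
  group

theorem other {v : G} (hv : orderOf v = 11) (hn : ¬ YT y v) :
    ∃ D ≤ 𝐂[v], Nat.card D ∣ 43786049417 ∧ 𝐂[v] ≤ 𝐍[D] ∧ D.relIndex 𝐂[v] ∣ 2 := by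
  have h4 : ¬ 2 ^ 2 ∣ Nat.card 𝐂[v] := fun h4 => by
    obtain ⟨T, hT⟩ := exists_isSylIn 2 𝐂[v]
    have h1 := card_mul_relIndex hT.le
    have h2 : 2 ^ 2 ∣ Nat.card T := by
      rw [← h1] at h4
      exact Nat.Coprime.dvd_of_dvd_mul_right (Nat.Coprime.pow_left 2
        ((Nat.Prime.coprime_iff_not_dvd Nat.prime_two).2 hT.not_dvd_relIndex)) h4
    obtain ⟨c, hc, ho, hcc⟩ := exists_orderOf_eq_centralizer_of_normalized hT.pg hT.pg
      (by rintro rfl; simp at h2) le_normalizer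
    rcases h.inv c ho with e | e
    · exact hn (h.ztype e hv (mc' (hT.le hc)))
    · have h3 : T ≤ 𝐂[c] ⊓ 𝐂[v] := fun a ha => ⟨mc.2 (hcc a ha), hT.le ha⟩
      have h5 := h2.trans (card_dvd_of_le h3)
      rw [h.cent_t e hv (hT.le hc)] at h5
      norm_num at h5
  obtain ⟨P, N, hN, hc⟩ := H26.hasNormalPComplement_of_not_sq_dvd (q := 2) h4 (by simp)
  have hodd : ¬ 2 ∣ Nat.card N := by rw [← hc.index_eq_card]; exact P.not_dvd_index
  refine ⟨N.map (𝐂[v]).subtype, map_subtype_le _, ?_, ?_, ?_⟩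
  · refine dvd_big (h.ord ▸ card_subgroup_dvd_card _) fun p hp hd => ?_
    obtain ⟨a, ha, ho⟩ := exists_ord hp hd
    have ha' := mc' (map_subtype_le _ ha)
    rcases prime_dvd_cases hp (h.ord ▸ hd.trans (card_subgroup_dvd_card _)) with
      rfl | rfl | rfl | rfl | rfl | hb
    · rw [card_map_subtype] at hd; exact (hodd hd).elim
    · obtain ⟨z', hz', hc'⟩ := h.three_z ho
      exact (hn (h.ztype hz' hv (hc' ha'))).elim
    · exact (h.not57 (by tauto) hv ha').elim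
    · exact (h.not57 (by tauto) hv ha').elim
    · exact Or.inl rfl
    · exact Or.inr hb
  · intro c hc'
    apply mem_normalizer_of_forall
    rintro _ ⟨o, ho, rfl⟩
    exact ⟨_, hN.conj_mem o ho ⟨c, hc'⟩, rfl⟩
  · rw [relIndex, subgroupOf, comap_map_eq_self_of_injective (subtype_injective _),
      hc.symm.index_eq_card]
    obtain ⟨k, hk⟩ := IsPGroup.iff_card.1 P.isPGroup'
    rw [hk]
    exact pow_dvd_pow 2 (le_of_pow_dvd (m := 1) (hk ▸ card_subgroup_dvd_card _) h4)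

omit h in
theorem odd_mem {D K : Subgroup G} (hK : K ≤ 𝐍[D]) (h2 : D.relIndex K ∣ 2) {a : G} (ha : a ∈ K)
    (ho : Odd (orderOf a)) : a ∈ D := by
  obtain ⟨k, hk⟩ := exists_pow_eq_self_of_coprime (x := a) (n := D.relIndex K)
    (Nat.Coprime.coprime_dvd_left h2 (Nat.coprime_two_left.2 ho))
  rw [← hk]
  exact pow_mem (pow_relIndex hK ha) k

theorem exists_y {v : G} (hv : orderOf v = 11) :
    ∃ y', orderOf y' = 11 ∧ YT y y' ∧ y' ∈ 𝐂[v] := by
  haveI : Fact (Nat.Prime 11) := ⟨by norm_num⟩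
  obtain ⟨g, -, hg⟩ := h.O_syl.exists_conj_mem (k := 1) hv (mem_top _)
  refine ⟨g⁻¹ * y * g⁻¹⁻¹, by rw [ord_conj, h.y11], ⟨g, by rw [cj_zpowers]; congr 1; group⟩, ?_⟩
  have := mc' (OU_le hg)
  rw [← cj_cent1, mem_cj] at this
  simpa using this

theorem no_mixed {u v : G} {r : ℕ} (hr : Big r) (hu : orderOf u = r) (hv : orderOf v = 11)
    (hc : v ∈ 𝐂[u]) : 121 ∣ Nat.card 𝐍[zpowers u] := by
  have k : ∀ w, YT y w → w ∉ 𝐂[u] := fun w hw hc => by
    have := ord_dvd (mc' hc)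
    rw [h.cent_ytype hw, hu] at this
    rcases hr with rfl | rfl | rfl | rfl | rfl <;> norm_num at this
  obtain ⟨D, hD, h1, h2, h3⟩ := h.other hv fun e => k v e hc
  obtain ⟨y', ho, hy, hyv⟩ := h.exists_y hv
  have hodd : Odd r := by rcases hr with rfl | rfl | rfl | rfl | rfl <;> decide
  have h4 := normal_big h1 hr hu (odd_mem h2 h3 (mc' hc) (hu ▸ hodd)) (h2 hyv)
  have h5 := (cent_or_dvd (by norm_num) ho h4).resolve_left (k y' hy)
  rw [← card_mul_relIndex (cent_le_norm (a := u))]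
  exact Nat.mul_dvd_mul (hv ▸ ord_dvd hc) h5

theorem n31 {u : G} (hu : orderOf u = 31) : 5 ∣ Nat.card 𝐍[zpowers u] := by
  haveI : Fact (Nat.Prime 31) := ⟨by norm_num⟩
  obtain ⟨a, b, ha, hb, e⟩ := h.f31
  obtain ⟨g, -, hg⟩ := (h.big_syl (by simp [Big]) ha).exists_cj_eq (h.big_syl (by simp [Big]) hu)
  rw [← hg, ← cj_normalizer, card_cj, ← hb]
  exact ord_dvd (mem_norm_zp (by rw [e]; exact pow_mem (mem_zpowers a) 2))

theorem bigP : BigP G := by
  intro r e hre u hu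
  have hr : Big r := by
    simp only [List.mem_cons, Prod.mk.injEq, List.not_mem_nil, or_false] at hre
    unfold Big; tauto
  have h2 := card_mul_relIndex (cent_le_norm (a := u))
  rcases h.big_chk hr hu with ⟨k1, k2⟩ | ⟨k1, k2⟩ | ⟨k1, k2⟩
  · refine ⟨(eq_of_le_of_card_ge (zpowers_le.2 (mc.2 rfl)) (by rw [card_zp, hu, k1])).symm, ?_⟩
    rw [← h2, k1]
    congr 1
    simp only [List.mem_cons, Prod.mk.injEq, List.not_mem_nil, or_false] at hre k2
    omega
  · exfalso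
    obtain ⟨v, hv, ho⟩ := exists_ord (by norm_num) k1
    exact k2 (h2 ▸ h.no_mixed hr hu ho hv)
  · exfalso
    rw [k1, k2] at h2
    obtain ⟨v, hv, ho⟩ := exists_ord (H := 𝐂[u]) (p := 31) (by norm_num) (by rw [k1]; norm_num)
    have := h.n31 ho
    rw [← h.big_norm hr hu (by simp [Big]) ho hv, ← h2] at this
    norm_num at this

theorem sylow_big {r e : ℕ} (hre : (r, e) ∈ [(23, 22), (29, 28), (31, 10), (37, 12), (43, 14)])
    (U : Sylow r G) : centralizer ((U : Subgroup G) : Set G) = (U : Subgroup G) ∧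
      Nat.card 𝐍[(U : Subgroup G)] = r * e := by
  have hr : Big r := by
    simp only [List.mem_cons, Prod.mk.injEq, List.not_mem_nil, or_false] at hre
    unfold Big; tauto
  haveI : Fact r.Prime := ⟨hr.prime⟩
  obtain ⟨u, -, hu⟩ := exists_ord (H := (⊤ : Subgroup G)) hr.prime (by
    rw [card_top, h.ord]; rcases hr with rfl | rfl | rfl | rfl | rfl <;> norm_num)
  obtain ⟨g, -, hg⟩ := (h.big_syl hr hu).exists_cj_eq (isSylIn_top U)
  rw [← hg, cj_zpowers, cent_zp]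
  exact h.bigP r e hre _ (by rw [ord_conj, hu])

theorem s5577 :
    (∀ U : Sylow 23 G, Subgroup.centralizer ((U : Subgroup G) : Set G) = (U : Subgroup G) ∧ Nat.card ↥(Subgroup.normalizer ((U : Subgroup G) : Set G)) = 23 * 22) ∧
    (∀ U : Sylow 29 G, Subgroup.centralizer ((U : Subgroup G) : Set G) = (U : Subgroup G) ∧ Nat.card ↥(Subgroup.normalizer ((U : Subgroup G) : Set G)) = 29 * 28) ∧
    (∀ U : Sylow 31 G, Subgroup.centralizer ((U : Subgroup G) : Set G) = (U : Subgroup G) ∧ Nat.card ↥(Subgroup.normalizer ((U : Subgroup G) : Set G)) = 31 * 10) ∧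
    (∀ U : Sylow 37 G, Subgroup.centralizer ((U : Subgroup G) : Set G) = (U : Subgroup G) ∧ Nat.card ↥(Subgroup.normalizer ((U : Subgroup G) : Set G)) = 37 * 12) ∧
    (∀ U : Sylow 43 G, Subgroup.centralizer ((U : Subgroup G) : Set G) = (U : Subgroup G) ∧ Nat.card ↥(Subgroup.normalizer ((U : Subgroup G) : Set G)) = 43 * 14) :=
  ⟨h.sylow_big (by simp), h.sylow_big (by simp), h.sylow_big (by simp), h.sylow_big (by simp),
    h.sylow_big (by simp)⟩

end J4I

end Cfsg.Agent.J4A
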