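import Cfsg.Agent.J4A.Big

set_option autoImplicit false

namespace Cfsg.Agent.J4A

def strong (d : ℕ) : Bool :=
  [0, 1, 22].contains (d % 23) && [0, 1, 28].contains (d % 29) &&
  [0, 1, 30, 10, 21].contains (d % 31) && [0, 1, 36, 12, 25].contains (d % 37) &&
  [0, 1, 42, 14, 29].contains (d % 43)

def chis (d : ℕ) : Bool :=
  [0, 1, 22].contains (d % 23) && [0, 1, 28].contains (d % 29) &&
  [0, 1, 30].contains (d % 31) && [0, 1, 36].contains (d % 37) && [0, 1, 42].contains (d % 43)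

def Lp : List ℕ := [32007996, 32897107, 102094470, 102982248, 426773280, 463524864, 594270320, 706699840, 821538564, 925709290, 1050585030, 1445942610, 1901665024, 2076808668, 2173331456, 2470686174, 2471573952, 2568096740, 2692972480, 2962269728, 3584895552, 3980549947, 4998830166, 5163956688, 5393003154, 5490413720, 7208757360, 8217909568, 8787818496]

def Ln : List ℕ := [299367, 1187145, 2076255, 35411145, 36300256, 133710822, 195852544, 256809674, 361868177, 466926680, 686548320, 1081313604, 1151398745, 2265609456, 2731348992, 3194422528, 3520879560, 3844670592, 6608027580]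

def chkD (e : ℕ) : Bool :=
  !(strong e) || !(e * e ≤ 86775571046077562880) ||
    ((!(66 ≤ e % 1331 && e % 1331 ≤ 196) || Lp.contains e) &&
      (!(1135 ≤ e % 1331 && e % 1331 ≤ 1265) || Ln.contains e))

theorem chkD_all : ((List.range 22).all fun i => [1, 3, 9, 27].all fun a => [1, 5].all fun b =>
    [1, 7].all fun c => dl.all fun d => chkD (2 ^ i * (a * (b * (c * d))))) = true := by
  decide +kernel

theorem chkD_of {e : ℕ} (h : e ∣ 86775571046077562880) : chkD e = true := by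
  have e' : (86775571046077562880 : ℕ) = 2 ^ 21 * (3 ^ 3 * (5 * (7 * 43786049417))) := by norm_num
  rw [e'] at h
  obtain ⟨a, n1, ha, h1, rfl⟩ := (Nat.dvd_mul).1 h
  obtain ⟨b, n2, hb, h2, rfl⟩ := (Nat.dvd_mul).1 h1
  obtain ⟨c, n3, hc, h3, rfl⟩ := (Nat.dvd_mul).1 h2
  obtain ⟨d, n4, hd, h4, rfl⟩ := (Nat.dvd_mul).1 h3
  obtain ⟨k, hk, rfl⟩ := (Nat.dvd_prime_pow (by norm_num)).1 ha
  obtain ⟨j, hj, rfl⟩ := (Nat.dvd_prime_pow (by norm_num)).1 hb
  have := chkD_all
  simp only [List.all_eq_true] at this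
  refine this k (List.mem_range.2 (by omega)) _ (by interval_cases j <;> simp) c ?_ d ?_ _
    (mem_dl h4)
  · simpa using (Nat.dvd_prime (by norm_num)).1 hc
  · simpa using (Nat.dvd_prime (by norm_num)).1 hd

def bis (w : ℕ) : ℕ → ℕ → ℕ
  | 0, s => s
  | k + 1, s => if (s + 2 ^ k) * (s + 2 ^ k) ≤ w then bis w k (s + 2 ^ k) else bis w k s

def nsq (w : ℕ) : Bool :=
  bis w 64 0 * bis w 64 0 < w && w < (bis w 64 0 + 1) * (bis w 64 0 + 1)

theorem nsq_sound {D : ℕ} (h : nsq (D * D) = true) : False := by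
  simp only [nsq, Bool.and_eq_true, decide_eq_true_eq] at h
  have h1 := Nat.mul_self_lt_mul_self_iff.1 h.1
  have h2 := Nat.mul_self_lt_mul_self_iff.1 h.2
  omega

def chkT (e1 e2 c : ℕ) : Bool :=
  c == 0 || !(chis c) || 86775571046077562880 % c != 0 ||
    (11 * 1816657920 ^ 2 * (e1 * e2 * c)) % 86775571046077562880 != 0 ||
    nsq ((11 * 1816657920 ^ 2 * (e1 * e2 * c)) / 86775571046077562880)

theorem chkT_all : ((Lp.all fun a => Lp.all fun b => chkT a b (a + b)) &&
    (Ln.all fun a => Ln.all fun b => chkT a b (a + b)) &&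
    (Lp.all fun a => Ln.all fun b => chkT a b (a - b) && chkT a b (b - a))) = true := by
  decide +kernel

theorem chkT_sound {e1 e2 c D : ℕ} (h : chkT e1 e2 c = true) (h0 : 0 < c) (h1 : chis c = true)
    (h2 : c ∣ 86775571046077562880)
    (h3 : 86775571046077562880 * (D * D) = 11 * 1816657920 ^ 2 * (e1 * e2 * c)) : False := by
  simp only [chkT, Bool.or_eq_true, beq_iff_eq, Bool.not_eq_true', bne_iff_ne, ← h3] at h
  rcases h with (((h | h) | h) | h) | h
  · omega
  · simp [h1] at h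
  · exact h (Nat.mod_eq_zero_of_dvd h2)
  · exact h (Nat.mul_mod_right _ _)
  · rw [Nat.mul_div_cancel_left _ (by norm_num)] at h
    exact nsq_sound h

theorem win {e : ℕ} {δ a : ℤ} (hd : e ∣ 86775571046077562880)
    (hs : e * e ≤ 86775571046077562880) (h : strong e = true) (ha : 66 ≤ a) (ha' : a ≤ 196)
    (hm : (δ * e - a) % 1331 = 0) : (δ = 1 → e ∈ Lp) ∧ (δ = -1 → e ∈ Ln) := by
  have := chkD_of hd
  simp only [chkD, h, hs, Bool.not_true, decide_true, Bool.false_or, Bool.and_eq_true,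
    Bool.or_eq_true, Bool.not_eq_true', Bool.and_eq_false_iff, decide_eq_false_iff_not,
    List.contains_iff_mem] at this
  constructor
  · rintro rfl
    rcases this.1 with (k | k) | k
    · omega
    · omega
    · exact k
  · rintro rfl
    rcases this.2 with (k | k) | k
    · omega
    · omega
    · exact k

theorem arith {e1 e2 c D : ℕ} {δ1 δ2 ε : ℤ} (h1 : (δ1 = 1 → e1 ∈ Lp) ∧ (δ1 = -1 → e1 ∈ Ln))
    (h2 : (δ2 = 1 → e2 ∈ Lp) ∧ (δ2 = -1 → e2 ∈ Ln)) (d1 : δ1 = 1 ∨ δ1 = -1)
    (d2 : δ2 = 1 ∨ δ2 = -1) (d3 : ε = 1 ∨ ε = -1) (he : ε * c = δ1 * e1 + δ2 * e2) (h0 : 0 < c)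
    (hc : chis c = true) (hd : c ∣ 86775571046077562880)
    (h3 : 86775571046077562880 * (D * D) = 11 * 1816657920 ^ 2 * (e1 * e2 * c)) : False := by
  have k := chkT_all
  simp only [Bool.and_eq_true, List.all_eq_true] at k
  obtain ⟨⟨k1, k2⟩, k3⟩ := k
  rcases d1 with rfl | rfl <;> rcases d2 with rfl | rfl
  · obtain rfl : c = e1 + e2 := by rcases d3 with rfl | rfl <;> omega
    exact chkT_sound (k1 _ (h1.1 rfl) _ (h2.1 rfl)) h0 hc hd h3
  · have k4 := k3 _ (h1.1 rfl) _ (h2.2 rfl)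
    rcases d3 with rfl | rfl
    · obtain rfl : c = e1 - e2 := by omega
      exact chkT_sound k4.1 h0 hc hd h3
    · obtain rfl : c = e2 - e1 := by omega
      exact chkT_sound k4.2 h0 hc hd h3
  · have k4 := k3 _ (h2.1 rfl) _ (h1.2 rfl)
    rw [mul_comm e1] at h3
    rcases d3 with rfl | rfl
    · obtain rfl : c = e2 - e1 := by omega
      exact chkT_sound k4.1 h0 hc hd h3
    · obtain rfl : c = e1 - e2 := by omega
      exact chkT_sound k4.2 h0 hc hd h3
  · obtain rfl : c = e1 + e2 := by rcases d3 with rfl | rfl <;> omega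
    exact chkT_sound (k2 _ (h1.2 rfl) _ (h2.2 rfl)) h0 hc hd h3

end Cfsg.Agent.J4A
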