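import Cfsg.Agent.J4A.Chk
import Cfsg.Agent.H5.Exc
import Cfsg.Agent.H4.Galois
import Cfsg.Agent.H4.Char4
import Cfsg.Agent.H6.Weak
import Cfsg.Agent.S4441

set_option autoImplicit false
open Subgroup
open scoped ComplexConjugate

namespace Cfsg.Agent.J4A
open H4

variable {G : Type*} [Group G] {U : Subgroup G}

noncomputable scoped instance actIrr : MulAction (normalizer (U : Set G)) (IrrCharacter U) where
  smul n κ := ⟨fun u => κ.1 (U.normalizerMonoidHom n⁻¹ u), κ.2.comp_equiv _⟩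
  one_smul κ := Subtype.ext (funext fun u => by
    show κ.1 (U.normalizerMonoidHom 1⁻¹ u) = _
    simp)
  mul_smul a b κ := Subtype.ext (funext fun u => by
    show κ.1 (U.normalizerMonoidHom (a * b)⁻¹ u) =
      κ.1 (U.normalizerMonoidHom b⁻¹ (U.normalizerMonoidHom a⁻¹ u))
    rw [mul_inv_rev, map_mul]; rfl)

theorem smul_apply (n : normalizer (U : Set G)) (κ : IrrCharacter U) (u : U) :
    (n • κ).1 u = κ.1 (U.normalizerMonoidHom n⁻¹ u) := rfl

theorem coe_nh (n : normalizer (U : Set G)) (u : U) :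
    (U.normalizerMonoidHom n u : G) = n * u * (n : G)⁻¹ := rfl

variable [Fintype G] [Fintype U]

/-- multiplicity of `κ` in the restriction of `ψ` -/
noncomputable def mz (ψ : IrrCharacter G) (κ : IrrCharacter U) : ℤ :=
  ((ψ.2.isCharacter.restrict U).classInner_nat κ.2.isCharacter).choose

theorem mz_cast (ψ : IrrCharacter G) (κ : IrrCharacter U) :
    (mz ψ κ : ℂ) = classInner (fun u : U => ψ.1 u) κ.1 := by
  rw [mz, Int.cast_natCast]
  exact ((ψ.2.isCharacter.restrict U).classInner_nat κ.2.isCharacter).choose_spec.symm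

theorem mz_smul (ψ : IrrCharacter G) (n : normalizer (U : Set G)) (κ : IrrCharacter U) :
    mz ψ (n • κ) = mz ψ κ := by
  apply Int.cast_injective (α := ℂ)
  rw [mz_cast, mz_cast, ← classInner_comp_equiv (fun u : U => ψ.1 u) κ.1
    (U.normalizerMonoidHom n⁻¹).toEquiv]
  congr 1
  funext u
  exact (ψ.2.isClassFunction u (n⁻¹ : normalizer (U : Set G))).symm

theorem sum_mz (ψ : IrrCharacter G) (κ κ' : IrrCharacter U) :
    ∑ u : U, ψ.1 u * conj (κ.1 u - κ'.1 u) = Nat.card U * ((mz ψ κ - mz ψ κ' : ℤ) : ℂ) := by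
  rw [Int.cast_sub, mz_cast, mz_cast, ← classInner_sub_right, card_mul_classInner]
  rfl

theorem deg_eq (hU : ∀ a b : U, a * b = b * a) (ψ : IrrCharacter G) :
    (charDegree ψ.1 : ℤ) = ∑ κ : IrrCharacter U, mz ψ κ := by
  apply Int.cast_injective (α := ℂ)
  rw [Int.cast_natCast, ψ.2.isCharacter.charDegree_cast, Int.cast_sum]
  have := (ψ.2.isCharacter.restrict U).isClassFunction.apply_eq_sum 1
  simp only [OneMemClass.coe_one] at this
  rw [this]
  refine Finset.sum_congr rfl fun κ _ => ?_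
  rw [κ.2.apply_one_eq_one_of_comm hU, mul_one, mz_cast]

/-- trivial intersection property -/
def TI (U : Subgroup G) : Prop :=
  ∀ g u : G, u ∈ U → u ≠ 1 → g * u * g⁻¹ ∈ U → g ∈ normalizer (U : Set G)

theorem sumN [Fintype (normalizer (U : Set G))] (hT : TI U) {v : U} (hv : v ≠ 1) (F : U → ℂ) :
    ∑ u : U, (Nat.card {y : G // y * v * y⁻¹ = u} : ℂ) * F u =
      ∑ n : normalizer (U : Set G), F (U.normalizerMonoidHom n v) := by
  classical
  simp only [natCard_subtype_eq_sum, Finset.sum_mul]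
  rw [Finset.sum_comm, ← Fintype.sum_subtype_add_sum_subtype (· ∈ normalizer (U : Set G)),
    Finset.sum_eq_zero (s := Finset.univ (α := {x // x ∉ normalizer (U : Set G)})), add_zero]
  · refine Finset.sum_congr (by congr 1; exact Subsingleton.elim _ _) fun n _ => ?_
    rw [Finset.sum_eq_single (U.normalizerMonoidHom n v)]
    · simp [coe_nh]
    · intro u _ hu
      rw [if_neg, zero_mul]
      exact fun e => hu (Subtype.ext e.symm)
    · simp
  · intro y _
    refine Finset.sum_eq_zero fun u _ => ?_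
    rw [if_neg, zero_mul]
    intro e
    exact y.2 (hT y v v.2 (fun h => hv (Subtype.ext h)) (e ▸ u.2))

/-- number of elements of the normalizer carrying `a` to `b` -/
noncomputable def TT (a b : IrrCharacter U) : ℕ := Nat.card {n : normalizer (U : Set G) // n • a = b}

omit [Fintype G] [Fintype U] in
theorem TT_self (a : IrrCharacter U) :
    TT a a = Nat.card (MulAction.stabilizer (normalizer (U : Set G)) a) := rfl

omit [Fintype G] [Fintype U] in
theorem TT_zero {a b : IrrCharacter U} (h : ∀ n : normalizer (U : Set G), n • a ≠ b) :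
    TT a b = 0 := by
  haveI : IsEmpty {n : normalizer (U : Set G) // n • a = b} := ⟨fun n => h n.1 n.2⟩
  exact Nat.card_of_isEmpty

omit [Fintype G] in
theorem sum_TT [Fintype (normalizer (U : Set G))] (a b : IrrCharacter U) :
    ∑ n : normalizer (U : Set G), ∑ v : U, a.1 v * conj (b.1 (U.normalizerMonoidHom n v)) =
      Nat.card U * TT a b := by
  classical
  rw [TT, natCard_subtype_eq_sum (fun n : normalizer (U : Set G) => n • a = b), Finset.mul_sum]
  refine Finset.sum_congr rfl fun n _ => ?_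
  have h1 := card_mul_classInner a.1 (n⁻¹ • b).1
  simp only [smul_apply, inv_inv] at h1
  rw [← h1]
  congr 1
  have := irr_classInner a (n⁻¹ • b)
  rw [this]
  simp only [eq_inv_smul_iff]

theorem K1 (hU : ∀ a b : U, a * b = b * a) (hT : TI U) (κ κ' l l' : IrrCharacter U) :
    (Nat.card U : ℤ) * ∑ ψ : IrrCharacter G, (mz ψ κ - mz ψ κ') * (mz ψ l - mz ψ l') =
      (TT l κ : ℤ) - TT l κ' - TT l' κ + TT l' κ' := by
  classical
  haveI : Fintype (normalizer (U : Set G)) := Fintype.ofFinite _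
  apply Int.cast_injective (α := ℂ)
  have h0 : (Nat.card U : ℂ) ≠ 0 := natCard_ne_zero'
  apply mul_left_cancel₀ h0
  have h1 : ∀ ψ : IrrCharacter G, (Nat.card U : ℂ) * ((Nat.card U : ℂ) *
      (((mz ψ κ - mz ψ κ') * (mz ψ l - mz ψ l') : ℤ) : ℂ)) =
      ∑ v : U, ∑ u : U, (ψ.1 u * conj (ψ.1 v)) * (conj (κ.1 u - κ'.1 u) * (l.1 v - l'.1 v)) := by
    intro ψ
    have e1 := sum_mz ψ κ κ'
    have e2 := congrArg conj (sum_mz ψ l l')
    simp only [map_sum, map_mul, Complex.conj_conj, map_natCast, map_intCast] at e2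
    calc _ = (Nat.card U * ((mz ψ l - mz ψ l' : ℤ) : ℂ)) *
          (Nat.card U * ((mz ψ κ - mz ψ κ' : ℤ) : ℂ)) := by push_cast; ring
      _ = _ := by
        rw [← e1, ← e2, Finset.sum_mul_sum]
        refine Finset.sum_congr rfl fun v _ => Finset.sum_congr rfl fun u _ => by ring
  have h2 : ∀ v : U, ∑ ψ : IrrCharacter G, ∑ u : U,
      (ψ.1 u * conj (ψ.1 v)) * (conj (κ.1 u - κ'.1 u) * (l.1 v - l'.1 v)) =
      ∑ n : normalizer (U : Set G), (l.1 v - l'.1 v) *
        conj (κ.1 (U.normalizerMonoidHom n v) - κ'.1 (U.normalizerMonoidHom n v)) := by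
    intro v
    by_cases hv : v = 1
    · subst hv
      simp [l.2.apply_one_eq_one_of_comm hU, l'.2.apply_one_eq_one_of_comm hU]
    · rw [Finset.sum_comm]
      simp only [← Finset.sum_mul, sum_irr_mul_conj]
      rw [sumN hT hv (fun u => conj (κ.1 u - κ'.1 u) * (l.1 v - l'.1 v))]
      exact Finset.sum_congr rfl fun n _ => mul_comm _ _
  rw [Int.cast_mul, Int.cast_sum, Int.cast_natCast, Finset.mul_sum, Finset.mul_sum]
  simp only [h1]
  rw [Finset.sum_comm]
  simp only [h2]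
  rw [Finset.sum_comm]
  simp only [map_sub, sub_mul, mul_sub, Finset.sum_sub_distrib, sum_TT]
  push_cast
  ring

theorem K0 (hU : ∀ a b : U, a * b = b * a) (κ κ' : IrrCharacter U) {g : G}
    (hg : ∀ y : G, y * g * y⁻¹ ∈ U → g = 1) :
    ∑ ψ : IrrCharacter G, ((mz ψ κ - mz ψ κ' : ℤ) : ℂ) * conj (ψ.1 g) = 0 := by
  have h0 : (Nat.card U : ℂ) ≠ 0 := natCard_ne_zero'
  apply mul_left_cancel₀ h0
  rw [mul_zero, Finset.mul_sum]
  simp only [← mul_assoc, ← sum_mz, Finset.sum_mul]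
  rw [Finset.sum_comm]
  refine Finset.sum_eq_zero fun u _ => ?_
  have : ∀ ψ : IrrCharacter G, ψ.1 u * conj (κ.1 u - κ'.1 u) * conj (ψ.1 g) =
      ψ.1 u * conj (ψ.1 g) * conj (κ.1 u - κ'.1 u) := fun ψ => by ring
  simp only [this, ← Finset.sum_mul, sum_irr_mul_conj]
  by_cases hu : u = 1
  · subst hu
    simp [κ.2.apply_one_eq_one_of_comm hU, κ'.2.apply_one_eq_one_of_comm hU]
  · haveI : IsEmpty {y : G // y * g * y⁻¹ = u} := ⟨fun ⟨y, h2⟩ => by
      have h1 := hg y (by rw [h2]; exact u.2)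
      rw [h1] at h2
      exact hu (Subtype.ext (by simpa using h2.symm))⟩
    simp

theorem K2 (κ κ' : IrrCharacter U) (t : G) :
    ∑ u : U, (κ.1 u - κ'.1 u) *
      (Nat.card {p : G × G // IsConj t p.1 ∧ IsConj t p.2 ∧ p.1 * p.2 = u} : ℂ) =
    ((centralizer ({t} : Set G)).index : ℂ) * (centralizer ({t} : Set G)).index / Nat.card G *
      Nat.card U * ∑ ψ : IrrCharacter G, ((mz ψ κ - mz ψ κ' : ℤ) : ℂ) * (ψ.1 t * ψ.1 t / ψ.1 1) := by
  simp only [card_class_mul_eq, Finset.mul_sum]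
  rw [Finset.sum_comm]
  refine Finset.sum_congr rfl fun ψ _ => ?_
  have e2 := congrArg conj (sum_mz ψ κ κ')
  simp only [map_sum, map_mul, Complex.conj_conj, map_natCast, map_intCast] at e2
  calc _ = ((centralizer ({t} : Set G)).index : ℂ) * (centralizer ({t} : Set G)).index / Nat.card G *
        (ψ.1 t * ψ.1 t / ψ.1 1) * ∑ u : U, conj (ψ.1 u) * (κ.1 u - κ'.1 u) := by
        rw [Finset.mul_sum]
        exact Finset.sum_congr rfl fun u _ => by ring
    _ = _ := by rw [e2]; ring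

omit [Fintype U] in
theorem card_pairs (hT : TI U) {t : G} (ht : orderOf t = 2) {u : U} (hu : u ≠ 1)
    (ho : Odd (orderOf (u : G))) :
    Nat.card {p : G × G // IsConj t p.1 ∧ IsConj t p.2 ∧ p.1 * p.2 = u} =
      Nat.card {n : normalizer (U : Set G) // IsConj t n ∧ (n : G) * u * (n : G)⁻¹ = (u : G)⁻¹} := by
  have k : ∀ a, IsConj t a → a * a = 1 := fun a ha => by
    obtain ⟨g, rfl⟩ := isConj_iff.1 ha
    exact sq1 (by rw [ord_conj, ht])
  have k2 : ∀ p : G × G, IsConj t p.1 ∧ IsConj t p.2 ∧ p.1 * p.2 = u →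
      p.1 * u * p.1⁻¹ = (u : G)⁻¹ := by
    rintro ⟨a, b⟩ ⟨ha, hb, e⟩
    simp only at ha hb e ⊢
    rw [← e, mul_inv_rev, inv_eq_of_mul_eq_one_right (k a ha), inv_eq_of_mul_eq_one_right (k b hb),
      ← mul_assoc, k a ha, one_mul]
  refine Nat.card_congr ⟨fun p => ⟨⟨p.1.1, hT _ u u.2 (fun h => hu (Subtype.ext h))
    (k2 p.1 p.2 ▸ U.inv_mem u.2)⟩, p.2.1, k2 p.1 p.2⟩,
    fun n => ⟨(n.1, n.1 * u), n.2.1, ?_, ?_⟩, ?_, ?_⟩
  · have h1 := k _ n.2.1
    refine n.2.1.trans (H11.isConj_of_odd h1 ?_ (by rwa [← mul_assoc, h1, one_mul]))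
    have h2 := n.2.2
    rw [inv_eq_of_mul_eq_one_right h1] at h2
    rw [← mul_assoc, h2, inv_mul_cancel]
  · simp only
    rw [← mul_assoc, k _ n.2.1, one_mul]
  · rintro ⟨⟨a, b⟩, ha, hb, e⟩
    simp only [Subtype.mk.injEq, Prod.mk.injEq, true_and]
    simp only at e
    rw [← e, ← mul_assoc, k a ha, one_mul]
  · intro n; rfl

theorem K3 [Fintype (normalizer (U : Set G))] (hU : ∀ a b : U, a * b = b * a) (hT : TI U)
    (hodd : Odd (Nat.card U)) (κ κ' : IrrCharacter U) {t : G} (ht : orderOf t = 2)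
    [DecidablePred fun n : normalizer (U : Set G) => IsConj t n] [DecidableEq G] :
    ∑ u : U, (κ.1 u - κ'.1 u) *
      (Nat.card {p : G × G // IsConj t p.1 ∧ IsConj t p.2 ∧ p.1 * p.2 = u} : ℂ) =
    ∑ n : normalizer (U : Set G), if IsConj t n then
      ∑ u : U, if (n : G) * u * (n : G)⁻¹ = (u : G)⁻¹ then κ.1 u - κ'.1 u else 0 else 0 := by
  classical
  have : ∀ n : normalizer (U : Set G), (if IsConj t n then
      ∑ u : U, if (n : G) * u * (n : G)⁻¹ = (u : G)⁻¹ then κ.1 u - κ'.1 u else 0 else 0) =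
      ∑ u : U, (κ.1 u - κ'.1 u) *
        if IsConj t n ∧ (n : G) * u * (n : G)⁻¹ = (u : G)⁻¹ then 1 else 0 := by
    intro n
    by_cases h : IsConj t n <;> simp only [h, true_and, false_and, if_true, if_false, mul_ite,
      mul_one, mul_zero, Finset.sum_const_zero]
  simp only [this]
  rw [Finset.sum_comm]
  refine Finset.sum_congr rfl fun u _ => ?_
  by_cases hu : u = 1
  · subst hu
    simp [κ.2.apply_one_eq_one_of_comm hU, κ'.2.apply_one_eq_one_of_comm hU]
  · rw [card_pairs hT ht hu (Odd.of_dvd_nat hodd (ord_dvd u.2)), natCard_subtype_eq_sum,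
      Finset.mul_sum]

end Cfsg.Agent.J4A
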