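import Cfsg.Agent.H21.JaI
import Cfsg.Agent.J4C.Main

set_option autoImplicit false

namespace Cfsg.Agent.J4A
open LL LL.U6

theorem j4 {G : Type*} [Group G] [Finite G] [IsSimpleGroup G] (hG : ¬ IsMulCommutative G)
    (hJ : IsOfJankoFourType G) : ∃ (z t x y s f : G) (E : Subgroup G), J4I z t x y s f E := by
  obtain ⟨z, P, h⟩ := id hJ
  obtain ⟨ρ, p, m, x, j, -⟩ := exists_JF h
  obtain ⟨b, d, t, Φ, k⟩ := j.exists_jc hG
  exact j4i' hG hJ (J4C.c7 k (k.ord hG))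

end Cfsg.Agent.J4A
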