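/-
Groups of order 48 with a self-centralizing normal quaternion subgroup
(a copy of `CI/M` and the model in `H19/W1` with lighter imports).
-/
import Cfsg.Agent.H11.QD
import Cfsg.Agent.H10.Basic
import Cfsg.Agent.H1.Basic
import Cfsg.Agent.S3742

set_option autoImplicit false
set_option linter.style.haveILetI false

namespace Cfsg.Agent.J4A.GLT

open Subgroup Cfsg.Agent.H10 Cfsg.Agent.H11 QuaternionGroup

/-- invertible two by two matrices over the field with three elements -/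
@[ext] structure M3 where
  a : ZMod 3
  b : ZMod 3
  c : ZMod 3
  d : ZMod 3
  h : a * d - b * c ≠ 0

namespace M3

instance : DecidableEq M3 := fun x y =>
  decidable_of_iff (x.a = y.a ∧ x.b = y.b ∧ x.c = y.c ∧ x.d = y.d) M3.ext_iff.symm

instance : Fintype M3 := Fintype.ofEquiv
  {p : ZMod 3 × ZMod 3 × ZMod 3 × ZMod 3 // p.1 * p.2.2.2 - p.2.1 * p.2.2.1 ≠ 0}
  ⟨fun p => ⟨_, _, _, _, p.2⟩, fun m => ⟨(m.a, m.b, m.c, m.d), m.h⟩, fun _ => rfl, fun _ => rfl⟩

instance : Mul M3 := ⟨fun x y => ⟨x.a * y.a + x.b * y.c, x.a * y.b + x.b * y.d,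
  x.c * y.a + x.d * y.c, x.c * y.b + x.d * y.d,
  fun e => mul_ne_zero x.h y.h (by linear_combination e)⟩⟩

instance : One M3 := ⟨⟨1, 0, 0, 1, by decide⟩⟩

instance : Inv M3 := ⟨fun x => ⟨(x.a * x.d - x.b * x.c) * x.d, -(x.a * x.d - x.b * x.c) * x.b,
  -(x.a * x.d - x.b * x.c) * x.c, (x.a * x.d - x.b * x.c) * x.a,
  fun e => pow_ne_zero 3 x.h (by linear_combination e)⟩⟩

theorem mul_def (x y : M3) : x * y = ⟨x.a * y.a + x.b * y.c, x.a * y.b + x.b * y.d,
  x.c * y.a + x.d * y.c, x.c * y.b + x.d * y.d, (x * y).h⟩ := rfl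

instance : Group M3 := Group.ofLeftAxioms
  (fun x y z => by ext <;> simp only [mul_def] <;> ring) (by decide +kernel) (by decide +kernel)

/-- the entries of an invertible matrix -/
def ofGL (g : GL (Fin 2) (ZMod 3)) : M3 := ⟨g 0 0, g 0 1, g 1 0, g 1 1, by
  rw [← Matrix.det_fin_two]; exact g.det_ne_zero⟩

/-- the isomorphism with the general linear group -/
noncomputable def equivGL : GL (Fin 2) (ZMod 3) ≃* M3 := MulEquiv.ofBijective
  (MonoidHom.mk' ofGL fun g h => by ext <;> simp [ofGL, mul_def, Matrix.mul_apply])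
  ⟨fun g h e => by
    have e' := M3.ext_iff.mp e
    ext i j
    fin_cases i <;> fin_cases j
    exacts [e'.1, e'.2.1, e'.2.2.1, e'.2.2.2],
  fun m => ⟨Matrix.GeneralLinearGroup.mkOfDetNeZero !![m.a, m.b; m.c, m.d]
    (by rw [Matrix.det_fin_two_of]; exact m.h), rfl⟩⟩
theorem card_eq : Nat.card M3 = 48 := by rw [Nat.card_eq_fintype_card]; decide +kernel

end M3

/-- A self-centralizing normal quaternion subgroup with the action on it. -/
structure Fr {H : Type*} [Group H] (ι : QuaternionGroup 2 →* H) (ρ : H →* MulAut (QuaternionGroup 2)) : Prop where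
  inj : Function.Injective ι
  act : ∀ h q, h * ι q * h⁻¹ = ι (ρ h q)
  ker : ρ.ker = zpowers (ι (a 2))

variable {H H' : Type*} [Group H] [Group H'] {ι : QuaternionGroup 2 →* H} {ρ : H →* MulAut (QuaternionGroup 2)}
  {ι' : QuaternionGroup 2 →* H'} {ρ' : H' →* MulAut (QuaternionGroup 2)}

theorem exists_fr (hι : Function.Injective ι) [ι.range.Normal] (hc : centralizer (ι.range : Set H) ≤ ι.range) :
    ∃ ρ, Fr ι ρ := by
  let e := MonoidHom.ofInjective hι
  have act : ∀ h q, h * ι q * h⁻¹ = ι (e.symm (MulAut.conjNormal h (e q))) := fun h q =>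
    (congrArg Subtype.val (e.apply_symm_apply (MulAut.conjNormal h (e q)))).symm
  refine ⟨(MulAut.congr e.symm).toMonoidHom.comp MulAut.conjNormal, hι, act, le_antisymm (fun h hh => ?_)
    (zpowers_le.2 (MulEquiv.ext fun q => hι ((act _ q).symm.trans ?_)))⟩
  · have k : ∀ q, h * ι q * h⁻¹ = ι q := fun q => (act h q).trans (congrArg ι (DFunLike.congr_fun (MonoidHom.mem_ker.1 hh) q))
    obtain ⟨q, rfl⟩ := hc (show h ∈ centralizer _ from fun _ ⟨q, e⟩ => e ▸ (mul_inv_eq_iff_eq_mul.1 (k q)).symm)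
    have : ∀ q : QuaternionGroup 2, (∀ r, q * r * q⁻¹ = r) → q = 1 ∨ q = a 2 := by decide
    rcases this q fun r => hι (by rw [map_mul, map_mul, map_inv, k]) with rfl | rfl
    exacts [map_one ι ▸ one_mem _, mem_zpowers _]
  · rw [← map_inv, ← map_mul, ← map_mul]
    exact congrArg ι (by revert q; decide)

theorem card_aut : Nat.card (MulAut (QuaternionGroup 2)) = 24 := by
  obtain ⟨e⟩ := S3742.result
  rw [Nat.card_congr e.toEquiv, Nat.card_perm]; simp; rfl

namespace Fr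

variable (h : Fr ι ρ)
include h

theorem o : orderOf (ι (a 2)) = 2 := (orderOf_injective ι h.inj _).trans (orderOf_two_of (by decide) (by decide))

theorem cases {x : H} (e : ρ x = 1) : x = 1 ∨ x = ι (a 2) :=
  (mem_zpowers_invol (mul_self_of_orderOf_two h.o)).1 (h.ker.le e)

theorem card : Nat.card H = 2 * Nat.card ρ.range := by
  rw [← ρ.ker.card_mul_index, index_ker, h.ker, Nat.card_zpowers, h.o]

theorem card_range : Nat.card ι.range = 8 := by
  rw [← Nat.card_congr (MonoidHom.ofInjective h.inj).toEquiv, Nat.card_eq_fintype_card, QuaternionGroup.card]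

theorem surj (hc : Nat.card H = 48) : Function.Surjective ρ :=
  MonoidHom.range_eq_top.1 (eq_top_of_card_eq _ (by have := h.card; rw [card_aut]; omega))

theorem normal : ι.range.Normal := ⟨fun _ ⟨q, e⟩ g => ⟨_, by rw [← h.act, e]⟩⟩

theorem cen (x : H) : x * ι (a 2) = ι (a 2) * x := by
  have := h.act x (a 2)
  rwa [(by decide : ∀ q : QuaternionGroup 2, q * q = 1 → q ≠ 1 → q = a 2) (ρ _ (a 2))
    (by rw [← map_mul]; exact map_one _) (by rw [Ne, MulEquiv.map_eq_one_iff]; decide), mul_inv_eq_iff_eq_mul] at this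

theorem center_eq : center H = ρ.ker := le_antisymm (fun x hx => MulEquiv.ext fun q => h.inj (by
  rw [← h.act, ← mem_center_iff.1 hx, mul_inv_cancel_right]; rfl)) (h.ker ▸ zpowers_le.2 (mem_center_iff.2 h.cen))

theorem mem (h' : Fr ι' ρ') {x : H} {y : H'} (e : ρ x = ρ' y) (hy : y ∈ ι'.range) : x ∈ ι.range := by
  obtain ⟨q, rfl⟩ := hy
  have : ρ (ι q) = ρ' (ι' q) := MulEquiv.ext fun r => (h.inj (a₂ := q * r * q⁻¹) (by
    rw [← h.act, map_mul, map_mul, map_inv])).trans (h'.inj (a₂ := q * r * q⁻¹) (by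
      rw [← h'.act, map_mul, map_mul, map_inv])).symm
  have k : (ι q)⁻¹ * x ∈ ι.range := zpowers_le.2 (MonoidHom.mem_range.2 ⟨_, rfl⟩) (h.ker.le (by
    rw [MonoidHom.mem_ker, map_mul, map_inv, this, e, inv_mul_cancel]))
  exact (mul_mem_cancel_left (inv_mem (MonoidHom.mem_range.2 ⟨q, rfl⟩))).1 k

theorem top [Finite H] (hc : Nat.card H = 48) {u w : H} (hu : orderOf u = 3) (hw : w * w = 1) (w1 : w ∉ ι.range)
    {D : Subgroup H} (h1 : ι.range ≤ D) (h2 : u ∈ D) (h3 : w ∈ D) : D = ⊤ := by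
  haveI := h.normal
  have e := H1.card_sup_of_disjoint (N := ι.range) (H := zpowers w) (le_top.trans (normalizer_eq_top _).ge)
    (eq_bot_iff.2 fun x hx => ((mem_zpowers_invol hw).1 hx.2).resolve_right fun e => w1 (e ▸ hx.1))
  rw [h.card_range, Nat.card_zpowers, orderOf_two_of (x := w) (fun e => w1 (e ▸ one_mem _)) hw] at e
  exact eq_top_of_card_eq _ (Nat.dvd_antisymm (card_subgroup_dvd_card D) (hc ▸ Nat.Coprime.mul_dvd_of_dvd_of_dvd
    (m := 16) (n := 3) (by decide) (e.symm.dvd.trans (card_dvd_of_le (sup_le h1 (zpowers_le.2 h3))))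
      (hu ▸ orderOf_dvd_natCard D h2)))

theorem iso [Finite H] [Finite H'] (h' : Fr ι' ρ') (hc : Nat.card H = 48) (hc' : Nat.card H' = 48) {u w : H} {u' w' : H'}
    (hu : orderOf u = 3) (hw : w * w = 1) (w1 : w ∉ ι.range) (r : w * u * w⁻¹ = u⁻¹) (hu' : orderOf u' = 3)
    (hw' : w' * w' = 1) (r' : w' * u' * w'⁻¹ = u'⁻¹) (e1 : ρ u = ρ' u') (e2 : ρ w = ρ' w') : Nonempty (H ≃* H') := by
  have n : ∀ x y, ρ x = ρ' y → (x, y) ∈ normalizer (((ι.prod ι').range : Subgroup (H × H')) : Set (H × H')) :=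
    fun x y e => mem_normalizer_of_forall fun _ ⟨q, hq⟩ => ⟨ρ x q, by
      rw [← hq]; exact Prod.ext (h.act x q).symm (e ▸ h'.act y q).symm⟩
  let D := (ι.prod ι').range ⊔ zpowers (u, u') ⊔ zpowers (w, w')
  have c : Nat.card D ≤ 48 := by
    refine Nat.le_of_dvd (by decide) ((H1.card_sup_dvd (zpowers_le.2 (le_normalizer_sup (zpowers_le.2 (n _ _ e2))
      (zpowers_le.2 (mem_normalizer_of_forall fun x hx => ?_)) (mem_zpowers _)))).trans (Nat.mul_dvd_mul (b := 24) (d := 2)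
        ((H1.card_sup_dvd (zpowers_le.2 (n _ _ e1))).trans (Nat.mul_dvd_mul (b := 8) (d := 3) ?_ ?_)) ?_))
    · obtain ⟨i, rfl⟩ := hx
      rw [← conj_zpow, show (w, w') * (u, u') * (w, w')⁻¹ = (u, u')⁻¹ from Prod.ext r r']
      exact zpow_mem (inv_mem (mem_zpowers _)) i
    · exact (card_range_dvd _).trans (by rw [Nat.card_eq_fintype_card, QuaternionGroup.card])
    · rw [Nat.card_zpowers, Prod.orderOf, hu, hu']; decide
    · rw [Nat.card_zpowers]; exact orderOf_dvd_of_pow_eq_one ((sq _).trans (Prod.ext hw hw'))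
  have m1 : ∀ q, (ι q, ι' q) ∈ D := fun q => mem_sup_left (mem_sup_left ⟨q, rfl⟩)
  have m2 : (u, u') ∈ D := mem_sup_left (mem_sup_right (mem_zpowers _))
  have m3 : (w, w') ∈ D := mem_sup_right (mem_zpowers _)
  have b : ∀ {K : Type _} [Group K] [Finite K] (f : D →* K), Nat.card K = 48 → f.range = ⊤ → Function.Bijective f :=
    fun f c1 c2 => (MonoidHom.range_eq_top.1 c2).bijective_of_nat_card_le (c1 ▸ c)
  exact ⟨(MulEquiv.ofBijective _ (b ((MonoidHom.fst _ _).comp D.subtype) hc (h.top hc hu hw w1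
    (fun _ ⟨q, e⟩ => ⟨⟨_, m1 q⟩, e⟩) ⟨⟨_, m2⟩, rfl⟩ ⟨⟨_, m3⟩, rfl⟩))).symm.trans
      (MulEquiv.ofBijective _ ((MonoidHom.range_eq_top.1 (h'.top hc' hu' hw' (mt (h.mem h' e2) w1)
        (D := ((MonoidHom.snd _ _).comp D.subtype).range) (fun _ ⟨q, e⟩ => ⟨⟨_, m1 q⟩, e⟩) ⟨⟨_, m2⟩, rfl⟩
          ⟨⟨_, m3⟩, rfl⟩)).bijective_of_nat_card_le (hc' ▸ c)))⟩

end Fr

/-- The quaternion subgroup of `GL₂(3)`. -/
def ι3 : QuaternionGroup 2 →* M3 := MonoidHom.mk' (fun q => match q with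
  | a k => (⟨0, 2, 1, 0, by decide⟩ : M3) ^ k.val
  | xa k => ⟨1, 1, 1, 2, by decide⟩ * (⟨0, 2, 1, 0, by decide⟩ : M3) ^ k.val) (by decide +kernel)

theorem Fr.gl [Finite H] (h : Fr ι ρ) (hc : Nat.card H = 48) {w : H} (hw : w * w = 1) (w1 : w ∉ ι.range) :
    Nonempty (H ≃* GL (Fin 2) (ZMod 3)) := by
  haveI : ι3.range.Normal := ⟨fun _ ⟨q, e⟩ g => e ▸ (by decide +kernel : ∀ g q, ∃ r, ι3 r = g * ι3 q * g⁻¹) g q⟩
  obtain ⟨ρ', h'⟩ := exists_fr (ι := ι3) (by decide +kernel) fun g hg =>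
    (by decide +kernel : ∀ g, (∀ q, ι3 q * g = g * ι3 q) → ∃ q, ι3 q = g) g fun q => hg _ ⟨q, rfl⟩
  obtain ⟨w', e2⟩ := h'.surj M3.card_eq (ρ w)
  obtain ⟨hw', u', u1, u2, r'⟩ := (by decide +kernel : ∀ w : M3, (w * w = 1 ∨ w * w = ι3 (a 2)) → (¬ ∃ q, ι3 q = w) →
    w * w = 1 ∧ ∃ u, u ≠ 1 ∧ u ^ 3 = 1 ∧ w * u * w⁻¹ = u⁻¹) w' (h'.cases (by rw [map_mul, e2, ← map_mul, hw, map_one]))
      (mt (h.mem h' e2.symm) w1)
  obtain ⟨v, e1⟩ := h.surj hc (ρ' u')
  have z2 := mul_self_of_orderOf_two h.o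
  have v3 : (v ^ 4) ^ 3 = 1 := by
    rw [show (v ^ 4) ^ 3 = (v ^ 3 * v ^ 3) ^ 2 by group]
    rcases h.cases (x := v ^ 3) (by rw [map_pow, e1, ← map_pow, u2, map_one]) with e | e <;> simp [e, z2]
  have e3 : ρ (v ^ 4) = ρ' u' := by rw [map_pow, e1, ← map_pow, pow_succ, u2, one_mul]
  have o' : orderOf u' = 3 := orderOf_eq_prime u2 u1
  have o : orderOf (v ^ 4) = 3 := orderOf_eq_prime v3 fun e => by
    rcases h'.cases (e3.symm.trans (by rw [e, map_one])) with e | e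
    exacts [u1 e, absurd (o'.symm.trans (e ▸ h'.o)) (by decide)]
  obtain ⟨e⟩ := h.iso h' hc M3.card_eq o hw w1 (by
    rcases h.cases (x := w * v ^ 4 * w⁻¹ * v ^ 4) (by
      rw [map_mul, map_mul, map_mul, map_inv, e3, ← e2, ← map_inv, ← map_mul, ← map_mul, r', ← map_mul,
        inv_mul_cancel, map_one]) with e | e
    · exact eq_inv_of_mul_eq_one_left e
    · have c : Commute (ι (a 2)) (v ^ 4)⁻¹ := (h.cen _).symm
      have := congrArg (· ^ 3) (eq_mul_inv_of_mul_eq e)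
      simp only [conj_pow, c.mul_pow, inv_pow, v3, pow_three (ι (a 2)), z2] at this
      exact absurd (by simpa using this.symm) (ne_one_of_orderOf_two h.o)) o' hw' r' e3 e2.symm
  exact ⟨e.trans M3.equivGL.symm⟩

end Cfsg.Agent.J4A.GLT
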