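import Cfsg.Agent.J4A.Defs
import Cfsg.Agent.FT
import Cfsg.Agent.H11.Syl
import Cfsg.Agent.H11.Invol
import Cfsg.Agent.H2.Prim
import Cfsg.Agent.H1.Cores

set_option autoImplicit false
open Subgroup

namespace Cfsg.Agent.J4A
open H11

/-- the five large primes -/
def Big (r : ℕ) : Prop := r = 23 ∨ r = 29 ∨ r = 31 ∨ r = 37 ∨ r = 43

theorem Big.prime {r : ℕ} (h : Big r) : r.Prime := by
  rcases h with rfl | rfl | rfl | rfl | rfl <;> norm_num

theorem prime_dvd_cases {p : ℕ} (hp : p.Prime) (h : p ∣ 86775571046077562880) :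
    p = 2 ∨ p = 3 ∨ p = 5 ∨ p = 7 ∨ p = 11 ∨ Big p := by
  have e : (86775571046077562880 : ℕ) = 2 ^ 21 * (3 ^ 3 * (5 * (7 * (11 ^ 3 * (23 * (29 * (31 *
    (37 * 43)))))))) := by norm_num
  rw [e] at h
  simp only [hp.dvd_mul] at h
  have q : ∀ {a k : ℕ}, a.Prime → p ∣ a ^ k → p = a := fun ha h =>
    (Nat.prime_dvd_prime_iff_eq hp ha).1 (hp.dvd_of_dvd_pow h)
  have q' : ∀ {a : ℕ}, a.Prime → p ∣ a → p = a := fun ha h =>
    (Nat.prime_dvd_prime_iff_eq hp ha).1 h
  unfold Big
  rcases h with h | h | h | h | h | h | h | h | h | h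
  · simp [q (by norm_num) h]
  · simp [q (by norm_num) h]
  · simp [q' (by norm_num) h]
  · simp [q' (by norm_num) h]
  · simp [q (by norm_num) h]
  · simp [q' (by norm_num) h]
  · simp [q' (by norm_num) h]
  · simp [q' (by norm_num) h]
  · simp [q' (by norm_num) h]
  · simp [q' (by norm_num) h]

theorem le_of_pow_dvd {p k m N : ℕ} (h : p ^ k ∣ N) (hn : ¬ p ^ (m + 1) ∣ N) : k ≤ m := by
  by_contra hk
  exact hn ((pow_dvd_pow p (by omega)).trans h)

theorem ppow_eq {p k j r : ℕ} (hp : p.Prime) (hr : Big r) (hpr : p ≠ r)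
    (h : p ^ k ∣ 43786049417) (hj : j ≤ k) (hm : p ^ k ≡ p ^ j [MOD r]) : j = k := by
  rcases Nat.eq_zero_or_pos k with rfl | hk
  · omega
  have h1 : p ∣ 43786049417 := (dvd_pow_self p hk.ne').trans h
  have h2 := prime_dvd_cases hp (h1.trans (by norm_num))
  unfold Big at h2
  rcases h2 with rfl | rfl | rfl | rfl | rfl | rfl | rfl | rfl | rfl | rfl
  · norm_num at h1
  · norm_num at h1
  · norm_num at h1
  · norm_num at h1
  · have := le_of_pow_dvd (m := 3) h (by norm_num)
    rcases hr with rfl | rfl | rfl | rfl | rfl <;>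
      (interval_cases k <;> interval_cases j <;> simp_all [Nat.ModEq])
  all_goals
    have := le_of_pow_dvd (m := 1) h (by norm_num)
    rcases hr with rfl | rfl | rfl | rfl | rfl <;>
      (interval_cases k <;> interval_cases j <;> simp_all [Nat.ModEq])

variable {G : Type*} [Group G] [Finite G]

theorem card_zp {u : G} : Nat.card (zpowers u) = orderOf u := Nat.card_zpowers u

theorem pg_zp {u : G} {p : ℕ} (h : orderOf u = p) : IsPGroup p (zpowers u) :=
  IsPGroup.of_card (n := 1) (by rw [card_zp, h, pow_one])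

theorem syl_zp {u : G} {p : ℕ} [hp : Fact p.Prime] (h : orderOf u = p) {D : Subgroup G}
    (hu : u ∈ D) (hd : ¬ p ^ 2 ∣ Nat.card D) : IsSylIn p (zpowers u) D := by
  have h1 := card_mul_relIndex (zpowers_le.2 hu)
  refine isSylIn_of_not_dvd (zpowers_le.2 hu) (pg_zp h) fun h2 => hd ?_
  rw [← h1, card_zp, h, sq]
  exact Nat.mul_dvd_mul_left p h2

theorem normal_big_aux {D : Type*} [Group D] [Finite D] (hD : Nat.card D ∣ 43786049417) {r : ℕ}
    (hr : Big r) {u : D} (hu : orderOf u = r) (g : D) : g * u * g⁻¹ ∈ zpowers u := by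
  haveI : Fact r.Prime := ⟨hr.prime⟩
  have hodd : Odd (Nat.card D) := Odd.of_dvd_nat (by decide) hD
  have hs := FT.solvable_of_odd hodd
  have hsyl : IsSylIn r (zpowers u) ⊤ := syl_zp hu (mem_top _) (by
    rw [card_top]
    intro h
    have := h.trans hD
    rcases hr with rfl | rfl | rfl | rfl | rfl <;> norm_num at this)
  have key : pCore r D ≤ zpowers u :=
    hsyl.le_of_normalized (H1.isPGroup_pCore r D) le_top le_normalizer_of_normal
  have h1 : u ∈ centralizer (fittingSubgroup D : Set D) := by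
    have : fittingSubgroup D ≤ centralizer ({u} : Set D) := by
      rw [H1.fittingSubgroup_eq_iSup_pCore]
      refine iSup_le fun p => ?_
      haveI : Fact (p : ℕ).Prime := ⟨p.2⟩
      by_cases hpr : (p : ℕ) = r
      · rw [hpr]
        refine key.trans (zpowers_le.2 ?_)
        rw [mem_centralizer_singleton_iff]
      · have h2 := H2.card_modEq_card_inf_centralizer (pg_zp hu) (V := pCore p D)
          le_normalizer_of_normal
        obtain ⟨k, hk⟩ := IsPGroup.iff_card.1 (H1.isPGroup_pCore p D)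
        have h3 : Nat.card (pCore p D ⊓ centralizer (zpowers u : Set D) : Subgroup D) ∣ p ^ k :=
          hk ▸ card_dvd_of_le inf_le_left
        obtain ⟨j, hj, hj'⟩ := (Nat.dvd_prime_pow p.2).1 h3
        rw [hk, hj'] at h2
        have h4 := ppow_eq p.2 hr hpr (hk ▸ (card_subgroup_dvd_card _).trans hD) hj h2
        have h5 : pCore p D ⊓ centralizer (zpowers u : Set D) = pCore p D :=
          eq_of_le_of_card_ge inf_le_left (by rw [hj', hk, h4])
        intro a ha
        rw [← h5] at ha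
        rw [mem_centralizer_singleton_iff]
        exact (ha.2 u (mem_zpowers u)).symm
    intro a ha
    exact mem_centralizer_singleton_iff.1 (this ha)
  have h2 := H1.le_pCore_of_le_fittingSubgroup (pg_zp hu)
    (zpowers_le.2 (H1.centralizer_fittingSubgroup_le hs h1))
  exact key ((inferInstance : (pCore r D).Normal).conj_mem _ (h2 (mem_zpowers u)) g)

theorem mem_norm_zp {u g : G} (h : g * u * g⁻¹ ∈ zpowers u) : g ∈ normalizer (zpowers u : Set G) := by
  apply mem_normalizer_of_cj_le
  rw [cj_zpowers]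
  exact zpowers_le.2 h

theorem ord_conj (g u : G) : orderOf (g * u * g⁻¹) = orderOf u := by
  rw [← MulAut.conj_apply]
  exact orderOf_injective (MulAut.conj g).toMonoidHom (MulAut.conj g).injective u

theorem normal_big {D : Subgroup G} (hD : Nat.card D ∣ 43786049417) {r : ℕ}
    (hr : Big r) {u : G} (hu : orderOf u = r) (huD : u ∈ D) :
    normalizer (D : Set G) ≤ normalizer (zpowers u : Set G) := by
  haveI : Fact r.Prime := ⟨hr.prime⟩
  have h1 : ∀ g ∈ D, g ∈ normalizer (zpowers u : Set G) := by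
    intro g hg
    apply mem_norm_zp
    obtain ⟨k, hk⟩ := normal_big_aux hD hr (u := (⟨u, huD⟩ : D))
      (by rw [← hu]; exact (orderOf_injective D.subtype D.subtype_injective ⟨u, huD⟩).symm) ⟨g, hg⟩
    exact ⟨k, by simpa using congrArg Subtype.val hk⟩
  have hsyl : IsSylIn r (zpowers u) D := syl_zp hu huD (by
    intro h
    have := h.trans hD
    rcases hr with rfl | rfl | rfl | rfl | rfl <;> norm_num at this)
  intro g hg
  apply mem_norm_zp
  have h2 := conj_mem_of_mem_normalizer hg huD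
  exact hsyl.mem_of_normalizes (k := 1) (by rw [ord_conj, hu, pow_one]) h2 (h1 _ h2)

/-- commutators of normalizing elements centralize a cyclic subgroup -/
theorem comm_cent {u a b : G} (ha : a ∈ normalizer (zpowers u : Set G))
    (hb : b ∈ normalizer (zpowers u : Set G)) :
    (a * b * a⁻¹ * b⁻¹) * u = u * (a * b * a⁻¹ * b⁻¹) := by
  obtain ⟨i, hi⟩ := conj_mem_of_mem_normalizer' ha (mem_zpowers u)
  obtain ⟨j, hj⟩ := conj_mem_of_mem_normalizer' hb (mem_zpowers u)
  simp only at hi hj
  have e1 : b⁻¹ * (a⁻¹ * u * a) * b = u ^ (j * i) := by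
    have := conj_zpow (a := b⁻¹) (b := u) (i := i)
    rw [inv_inv] at this
    rw [← hi, zpow_mul, hj, this]
  have e2 : a⁻¹ * (b⁻¹ * u * b) * a = u ^ (j * i) := by
    have := conj_zpow (a := a⁻¹) (b := u) (i := j)
    rw [inv_inv] at this
    rw [← hj, mul_comm j i, zpow_mul, hi, this]
  have e3 := e1.trans e2.symm
  calc (a * b * a⁻¹ * b⁻¹) * u = a * b * (a⁻¹ * (b⁻¹ * u * b) * a) * a⁻¹ * b⁻¹ := by group
    _ = a * b * (b⁻¹ * (a⁻¹ * u * a) * b) * a⁻¹ * b⁻¹ := by rw [e3]
    _ = _ := by group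

end Cfsg.Agent.J4A
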