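import Cfsg.Agent.S0370
import Cfsg.Agent.S0371
import Cfsg.Agent.S0372
import Cfsg.Agent.H21.Todd2
import Cfsg.Agent.H11.QD
import Cfsg.Agent.H1.Basic

set_option autoImplicit false
open Subgroup Equiv

namespace Cfsg.Agent.J4A.PG
open H11

abbrev F := ZMod 23

instance fact23 : Fact (Nat.Prime 23) := ⟨by norm_num⟩

def TT (b : F) : Perm GolayPt := Equiv.optionCongr (Equiv.addRight b)
def MM (c : Fˣ) : Perm GolayPt := Equiv.optionCongr (Units.mulLeft c)
def c2 : Fˣ := ⟨2, 12, by decide, by decide⟩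

@[simp] theorem TT_none (b : F) : TT b none = none := rfl
@[simp] theorem TT_some (b k : F) : TT b (some k) = some (k + b) := rfl
@[simp] theorem MM_none (c : Fˣ) : MM c none = none := rfl
@[simp] theorem MM_some (c : Fˣ) (k : F) : MM c (some k) = some (c * k) := rfl
@[simp] theorem w_none : projInv none = some 0 := rfl
theorem w_some (k : F) : projInv (some k) = if k = 0 then none else some (-k⁻¹) := by
  show (if k = 0 then none else some (-(k ^ 21))) = _
  split_ifs with h
  · rfl
  · rw [eq_inv_of_mul_eq_one_left ((by decide : ∀ k : F, k ≠ 0 → k ^ 21 * k = 1) k h)]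

theorem TT_pow (n : ℕ) : TT 1 ^ n = TT n := by
  induction n with
  | zero => ext (_ | k) <;> simp
  | succ n ih => rw [pow_succ', ih]; ext (_ | k) <;> simp [add_assoc]

theorem MM_mul (a b : Fˣ) : MM (a * b) = MM a * MM b := by ext (_ | k) <;> simp [mul_assoc]

theorem MM_pow (a : Fˣ) (n : ℕ) : MM (a ^ n) = MM a ^ n := by
  induction n with
  | zero => ext (_ | k) <;> simp
  | succ n ih => rw [pow_succ, pow_succ, MM_mul, ih]

def U0 : M24 := ⟨TT 1, S0370.result⟩
def H0 : M24 := ⟨MM c2, S0371.result _ ⟨⟨5, 14, by decide, by decide⟩, Units.ext (by decide)⟩⟩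
def W0 : M24 := ⟨projInv, S0372.result⟩

/-- the subgroup `L₂(23)` -/
def L0 : Subgroup (Perm GolayPt) := closure {TT 1, MM c2, projInv}

theorem L0_le : L0 ≤ M24 := (closure_le _).2 (by
  rintro _ (rfl | rfl | rfl)
  exacts [U0.2, H0.2, W0.2])

theorem u_mem : TT 1 ∈ L0 := subset_closure (by simp)
theorem h_mem : MM c2 ∈ L0 := subset_closure (by simp)
theorem w_mem : projInv ∈ L0 := subset_closure (by simp)

theorem TT_mem (b : F) : TT b ∈ L0 := by
  rw [← ZMod.natCast_zmod_val b, ← TT_pow]; exact pow_mem u_mem _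

theorem MM_mem (c : Fˣ) : MM c ∈ L0 ⊔ zpowers (MM (-1)) := by
  obtain ⟨k, -, h | h⟩ := (by decide : ∀ c : F, c ≠ 0 → ∃ k < 11, c = 2 ^ k ∨ c = 2 ^ k * -1)
    c c.ne_zero
  · rw [show c = c2 ^ k from Units.ext h, MM_pow]; exact mem_sup_left (pow_mem h_mem _)
  · rw [show c = c2 ^ k * -1 from Units.ext h, MM_mul, MM_pow]
    exact mul_mem (mem_sup_left (pow_mem h_mem _)) (mem_sup_right (mem_zpowers _))

/-- the action on the projective line -/
noncomputable def π : GL (Fin 2) F →* Perm GolayPt := MulAction.toPermHom _ (OnePoint F)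

theorem π_none (g : GL (Fin 2) F) :
    π g none = if g 1 0 = 0 then none else some (g 0 0 / g 1 0) := OnePoint.smul_infty_eq_ite g

theorem π_some (g : GL (Fin 2) F) (k : F) : π g (some k) = if g 1 0 * k + g 1 1 = 0 then none
    else some ((g 0 0 * k + g 0 1) / (g 1 0 * k + g 1 1)) := OnePoint.smul_some_eq_ite

theorem det_ne (g : GL (Fin 2) F) : g 0 0 * g 1 1 - g 0 1 * g 1 0 ≠ 0 := by
  rw [← Matrix.det_fin_two]; exact g.det_ne_zero

theorem π_ker : π.ker = center (GL (Fin 2) F) := by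
  ext g
  have hd := det_ne g
  rw [Matrix.GeneralLinearGroup.mem_center_iff_val_mem_range_scalar, MonoidHom.mem_ker]
  constructor
  · intro h
    have h1 := π_none g
    have h2 := π_some g 0
    have h3 := π_some g 1
    rw [h] at h1 h2 h3
    have c0 : g 1 0 = 0 := by by_contra c; simp [c] at h1
    have d0 : g 1 1 ≠ 0 := fun e => by simp [e, c0] at hd
    have b0 : g 0 1 = 0 := by simpa [c0, d0, eq_comm (a := (0 : F))] using h2
    have a0 : g 0 0 = g 1 1 := by
      simp only [c0, b0, d0, mul_one, zero_add, add_zero, if_false, Perm.coe_one, id,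
        Option.some.injEq] at h3
      rw [eq_div_iff d0, one_mul] at h3; exact h3.symm
    refine ⟨g 1 1, ?_⟩
    ext i j
    fin_cases i <;> fin_cases j <;> simp [c0, b0, a0]
  · rintro ⟨a, ha⟩
    have e : ∀ i j, g i j = Matrix.scalar (Fin 2) a i j := fun i j => by rw [ha]
    have a0 : a ≠ 0 := fun h => by simp [e, h] at hd
    ext (_ | k)
    · simp [π_none, e]
    · simp [π_some, e, a0]

theorem π_range : π.range = L0 ⊔ zpowers (MM (-1)) := by
  apply le_antisymm
  · rintro _ ⟨g, rfl⟩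
    have hd := det_ne g
    by_cases c : g 1 0 = 0
    · have d0 : g 1 1 ≠ 0 := fun e => by simp [e, c] at hd
      have a0 : g 0 0 ≠ 0 := fun e => by simp [e, c] at hd
      rw [show π g = TT (g 0 1 / g 1 1) * MM (Units.mk0 _ (div_ne_zero a0 d0)) by
        ext (_ | k)
        · simp [π_none, c]
        · simp only [π_some, c, zero_mul, zero_add, d0, if_false, Perm.coe_mul, Function.comp,
            MM_some, TT_some, Units.val_mk0]
          rw [add_div, div_mul_eq_mul_div]]
      exact mul_mem (mem_sup_left (TT_mem _)) (MM_mem _)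
    · rw [show π g = TT (g 0 0 / g 1 0) * MM (Units.mk0 _ (div_ne_zero hd (mul_ne_zero c c))) *
          projInv * TT (g 1 1 / g 1 0) by
        refine Equiv.ext ?_
        rintro (_ | k)
        · simp [π_none, c]
        · have e : k + g 1 1 / g 1 0 = 0 ↔ g 1 0 * k + g 1 1 = 0 := by
            rw [← mul_right_inj' c, mul_add, mul_div_cancel₀ _ c, mul_zero]
          simp only [π_some, Perm.coe_mul, Function.comp, TT_some, w_some, e]
          split_ifs with h
          · rfl
          · simp only [MM_some, TT_some, Units.val_mk0, Option.some.injEq]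
            rw [show k + g 1 1 / g 1 0 = (g 1 0 * k + g 1 1) / g 1 0 by field_simp]
            have h' : g 1 0 * k + g 1 1 ≠ 0 := h
            generalize hq : g 1 0 * k + g 1 1 = q at h' ⊢
            field_simp
            rw [← hq]; ring]
      exact mul_mem (mul_mem (mul_mem (mem_sup_left (TT_mem _)) (MM_mem _)) (mem_sup_left w_mem))
        (mem_sup_left (TT_mem _))
  · have k : ∀ c : Fˣ, MM c ∈ π.range := fun c =>
      ⟨.mkOfDetNeZero !![(c : F), 0; 0, 1] (by simp), by
        ext (_ | k) <;> simp [π_none, π_some]⟩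
    refine sup_le ((closure_le _).2 ?_) (zpowers_le.2 (k _))
    rintro _ (rfl | rfl | rfl)
    · exact ⟨.mkOfDetNeZero !![1, 1; 0, 1] (by simp), by ext (_ | k) <;> simp [π_none, π_some]⟩
    · exact k _
    · exact ⟨.mkOfDetNeZero !![0, -1; 1, 0] (by simp), by
        ext (_ | k) <;> simp [π_none, π_some, w_some, neg_div]⟩

theorem σ_not : MM (-1) ∉ M24 := fun h => by
  have := LL.fix2 (e := ⟨_, h⟩) (Subtype.ext (by decide : MM (-1) * MM (-1) = 1))
    fun e => (by decide : MM (-1) ≠ 1) (congrArg Subtype.val e)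
  rw [show (H16.fixSet ⟨_, h⟩).card = 2 from
    (by decide : (Finset.univ.filter fun p => MM (-1) p = p).card = 2)] at this
  omega

theorem cent_triv {τ : Perm GolayPt} (h1 : τ * TT 1 = TT 1 * τ) (h2 : τ * MM c2 = MM c2 * τ) :
    τ = 1 := by
  have a1 : τ none = none := (by decide : ∀ a, a = TT 1 a → a = none) _ (DFunLike.congr_fun h1 none)
  have a2 : τ (some 0) = some 0 :=
    ((by decide : ∀ a, a = MM c2 a → a = none ∨ a = some 0) _
      (DFunLike.congr_fun h2 (some 0))).resolve_left fun e => by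
        have := τ.injective (e.trans a1.symm); simp at this
  ext1 (_ | k)
  · exact a1
  · have := DFunLike.congr_fun (Commute.pow_right h1 k.val).eq (some 0)
    simpa [TT_pow, a2] using this

theorem pgl {G : Type*} [Group G] (κ : M24 →* G) (hκ : Function.Injective κ) {s : G}
    (s2 : s * s = 1) (h1 : s * κ U0 * s⁻¹ = (κ U0)⁻¹) (h2 : s * κ H0 = κ H0 * s)
    (h3 : s * κ W0 = κ W0 * s) :
    ∃ K : Subgroup G, Nonempty (↥K ≃* GL (Fin 2) (ZMod 23) ⧸ center (GL (Fin 2) (ZMod 23))) := by
  set σ := MM (-1) with hσ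
  have σ2 : σ * σ = 1 := by decide
  let φ : L0 →* G := κ.comp (inclusion L0_le)
  have hφ : Function.Injective φ := hκ.comp (inclusion_injective _)
  let γ : L0 →* Perm GolayPt × G := L0.subtype.prod φ
  have key : ∀ p ∈ L0, ∀ hp : p ∈ L0, (σ, s) * γ ⟨p, hp⟩ * (σ, s)⁻¹ ∈ γ.range := by
    intro p hp
    induction hp using closure_induction with
    | mem p hp =>
      intro hp'
      rcases hp with rfl | rfl | rfl
      · exact ⟨⟨_, hp'⟩⁻¹, Prod.ext (by decide : (TT 1)⁻¹ = σ * TT 1 * σ⁻¹) ((map_inv φ _).trans h1.symm)⟩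
      · exact ⟨⟨_, hp'⟩, Prod.ext (by decide : MM c2 = σ * MM c2 * σ⁻¹) (eq_mul_inv_of_mul_eq h2.symm)⟩
      · exact ⟨⟨_, hp'⟩, Prod.ext (by decide : projInv = σ * projInv * σ⁻¹)
          (eq_mul_inv_of_mul_eq h3.symm)⟩
    | one => intro _; rw [show γ ⟨1, _⟩ = 1 from map_one γ, mul_one, mul_inv_cancel]; exact one_mem _
    | mul a b ha hb iha ihb =>
      intro _
      rw [show γ ⟨a * b, _⟩ = γ ⟨a, ha⟩ * γ ⟨b, hb⟩ from map_mul γ ⟨a, ha⟩ ⟨b, hb⟩, ← conj_mul]
      exact mul_mem (iha ha) (ihb hb)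
    | inv a ha iha =>
      intro _
      rw [show γ ⟨a⁻¹, _⟩ = (γ ⟨a, ha⟩)⁻¹ from map_inv γ ⟨a, ha⟩, ← conj_inv]
      exact inv_mem (iha ha)
  haveI : Finite γ.range := Finite.of_surjective _ γ.rangeRestrict_surjective
  have ss : (σ, s) * (σ, s) = 1 := Prod.ext σ2 s2
  have hn : (σ, s) ∈ normalizer (γ.range : Set (Perm GolayPt × G)) :=
    mem_normalizer_fintype (by rintro _ ⟨p, rfl⟩; exact key p.1 p.2 p.2)
  let D := γ.range ⊔ zpowers (σ, s)
  have hD : ∀ d ∈ D, (∃ p, d = γ p) ∨ ∃ p, d = γ p * (σ, s) := fun d hd => by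
    obtain ⟨_, ⟨p, rfl⟩, a, ha, rfl⟩ := (H1.mem_sup_of_le_normalizer_left (zpowers_le.2 hn)).1 hd
    rcases (mem_zpowers_invol ss).1 ha with rfl | rfl
    exacts [Or.inl ⟨p, mul_one _⟩, Or.inr ⟨p, rfl⟩]
  have σL : σ ∉ L0 := fun h => σ_not (L0_le h)
  have i1 : Function.Injective ((MonoidHom.fst _ _).comp D.subtype) :=
    (injective_iff_map_eq_one _).2 fun ⟨d, hd⟩ e => by
      obtain ⟨p, rfl⟩ | ⟨p, rfl⟩ := hD d hd
      · exact Subtype.ext ((congrArg γ (Subtype.ext e : p = 1)).trans (map_one γ))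
      · exact (σL ((eq_inv_of_mul_eq_one_right e : σ = (p : Perm GolayPt)⁻¹) ▸ inv_mem p.2)).elim
  have i2 : Function.Injective ((MonoidHom.snd _ _).comp D.subtype) :=
    (injective_iff_map_eq_one _).2 fun ⟨d, hd⟩ e => by
      obtain ⟨p, rfl⟩ | ⟨p, rfl⟩ := hD d hd
      · exact Subtype.ext ((congrArg γ (hφ (e.trans (map_one φ).symm) : p = 1)).trans (map_one γ))
      · exfalso
        have e1 : s = φ p⁻¹ := by rw [map_inv]; exact eq_inv_of_mul_eq_one_right e
        have k : ∀ q : L0, (p * σ) * q = q * (p * σ : Perm GolayPt) := fun q => by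
          obtain ⟨r, hr⟩ := key q.1 q.2 q.2
          have r1 : (r : Perm GolayPt) = σ * q * σ⁻¹ := congrArg Prod.fst hr
          have r2 : φ r = s * φ q * s⁻¹ := congrArg Prod.snd hr
          rw [e1, ← map_inv, ← map_mul, ← map_mul] at r2
          have r3 := congrArg Subtype.val (hφ r2)
          rw [r1] at r3
          simp only [coe_mul, coe_inv, inv_inv] at r3
          calc (p * σ) * q = p * (σ * q * σ⁻¹) * σ := by group
            _ = _ := by rw [r3]; group
        exact σL (eq_inv_of_mul_eq_one_right (cent_triv (k ⟨_, u_mem⟩) (k ⟨_, h_mem⟩)) ▸ inv_mem p.2)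
  have r1 : ((MonoidHom.fst _ _).comp D.subtype).range = π.range := by
    rw [π_range, MonoidHom.range_comp, range_subtype, Subgroup.map_sup, MonoidHom.map_zpowers,
      MonoidHom.map_range]
    congr 1
    exact range_subtype L0
  exact ⟨_, ⟨(MonoidHom.ofInjective i2).symm.trans ((MonoidHom.ofInjective i1).trans
    ((MulEquiv.subgroupCongr r1).trans ((QuotientGroup.quotientKerEquivRange π).symm.trans
      (QuotientGroup.quotientMulEquivOfEq π_ker))))⟩⟩

end Cfsg.Agent.J4A.PG
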