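import Cfsg.Agent.J4A.M
import Cfsg.Agent.H6.ZStar
import Cfsg.Agent.H26.SylNum

set_option autoImplicit false
open Subgroup

namespace Cfsg.Agent.J4A
open H11

variable {G : Type*} [Group G] [Finite G] {z t x y s f : G} {E : Subgroup G}

local notation "𝐂[" a "]" => centralizer ({a} : Set G)
local notation "𝐍[" A "]" => normalizer ((A : Subgroup G) : Set G)

omit [Finite G] in
theorem mc {a b : G} : a ∈ 𝐂[b] ↔ a * b = b * a := mem_centralizer_singleton_iff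

omit [Finite G] in
theorem mc' {a b : G} (h : a ∈ 𝐂[b]) : b ∈ 𝐂[a] := mc.2 (mc.1 h).symm

omit [Finite G] in
theorem conj_of_mc {a b : G} (h : a ∈ 𝐂[b]) : a * b * a⁻¹ = b := by rw [mc.1 h]; group

omit [Finite G] in
theorem mc_of_conj {a b : G} (h : a * b * a⁻¹ = b) : a ∈ 𝐂[b] := by
  rw [mc]; conv_rhs => rw [← h]
  group

omit [Finite G] in
theorem cent_le_norm {a : G} : 𝐂[a] ≤ 𝐍[zpowers a] := fun g hg => by
  rw [mem_normalizer_iff]
  have : ∀ c ∈ zpowers a, g * c * g⁻¹ = c := by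
    rintro _ ⟨k, rfl⟩
    simp only
    rw [← conj_zpow, conj_of_mc hg]
  have h' : ∀ c ∈ zpowers a, g⁻¹ * c * g = c := fun c hc => by
    conv_lhs => rw [← this c hc]
    group
  intro c
  constructor
  · intro hc; rwa [this c hc]
  · intro hc
    have := h' _ hc
    rw [show g⁻¹ * (g * c * g⁻¹) * g = c by group] at this
    rw [this]; exact hc

theorem ord_dvd {a : G} {H : Subgroup G} (h : a ∈ H) : orderOf a ∣ Nat.card H :=
  H.orderOf_dvd_natCard h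

theorem exists_ord {H : Subgroup G} {p : ℕ} (hp : p.Prime) (h : p ∣ Nat.card H) :
    ∃ a ∈ H, orderOf a = p := by
  haveI : Fact p.Prime := ⟨hp⟩
  obtain ⟨a, ha⟩ := exists_prime_orderOf_dvd_card' (G := H) p h
  exact ⟨a, a.2, by rw [← ha]; exact orderOf_injective H.subtype H.subtype_injective a⟩

theorem pow_relIndex {A K : Subgroup G} (h : K ≤ 𝐍[A]) {c : G} (hc : c ∈ K) :
    c ^ A.relIndex K ∈ A := by
  haveI : (A.subgroupOf K).Normal := normal_subgroupOf_of_le_normalizer h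
  exact (A.subgroupOf K).pow_index_mem ⟨c, hc⟩

omit [Finite G] in
theorem sq1 {a : G} (h : orderOf a = 2) : a * a = 1 := by rw [← sq, ← h, pow_orderOf_eq_one]

omit [Finite G] in
theorem ne1 {a : G} {n : ℕ} (h : orderOf a = n + 2) : a ≠ 1 := by
  rintro rfl; simp at h

omit [Finite G] in
theorem ord2 {a : G} (h : a * a = 1) (h1 : a ≠ 1) : orderOf a = 2 :=
  orderOf_eq_prime (by rw [sq, h]) h1

theorem q8a : ∀ a b : QuaternionGroup 2, a * a = 1 → b * b = 1 → a ≠ 1 → b ≠ 1 → a = b := by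
  decide

theorem q8b : ∀ c : QuaternionGroup 2, c * c = 1 → ∃ a b, a * b * a⁻¹ * b⁻¹ = c := by
  decide

namespace J4I
variable (h : J4I z t x y s f E)
include h

omit [Finite G] in
theorem cardE : Nat.card E = 8 := by
  obtain ⟨e⟩ := h.q8
  rw [Nat.card_congr e.toEquiv, Nat.card_eq_fintype_card, QuaternionGroup.card]

omit [Finite G] in
theorem uniqE {a : G} (ha : a ∈ E) (ho : orderOf a = 2) : a = z := by
  obtain ⟨e⟩ := h.q8
  have k : ∀ (b : G) (hb : b ∈ E), orderOf b = 2 →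
      e ⟨b, hb⟩ * e ⟨b, hb⟩ = 1 ∧ e ⟨b, hb⟩ ≠ 1 := fun b hb hbo =>
    ⟨by rw [← map_mul, ← map_one e]; congr 1; exact Subtype.ext (sq1 hbo),
      fun h1 => ne1 hbo (congrArg Subtype.val (e.injective (h1.trans (map_one e).symm)))⟩
  have := q8a _ _ (k a ha ho).1 (k z h.zE h.z2).1 (k a ha ho).2 (k z h.zE h.z2).2
  exact congrArg Subtype.val (e.injective this)

omit [Finite G] in
theorem commE : ∃ a ∈ E, ∃ b ∈ E, a * b * a⁻¹ * b⁻¹ = z := by
  obtain ⟨e⟩ := h.q8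
  obtain ⟨a, b, hab⟩ := q8b (e ⟨z, h.zE⟩)
    (by rw [← map_mul, ← map_one e]; congr 1; exact Subtype.ext (sq1 h.z2))
  refine ⟨e.symm a, (e.symm a).2, e.symm b, (e.symm b).2, ?_⟩
  have := congrArg (fun c => ((e.symm c : E) : G)) hab
  simpa using this

theorem pgE : IsPGroup 2 E := IsPGroup.of_card (n := 3) h.cardE

theorem z_cent {u : G} (hu : E ≤ 𝐍[zpowers u]) : z ∈ 𝐂[u] := by
  obtain ⟨a, ha, b, hb, e⟩ := h.commE
  rw [mc, ← e]
  exact comm_cent (hu ha) (hu hb)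

theorem cent2 {a : G} (ha : orderOf a = 2) :
    Nat.card 𝐂[a] = 21799895040 ∨ Nat.card 𝐂[a] = 1816657920 := by
  rcases h.inv a ha with e | e
  · left; rw [← card_cent_of_isConj e, h.cz]
  · right; rw [← card_cent_of_isConj e, h.ct]

theorem cent3 {a : G} (ha : orderOf a = 3) : Nat.card 𝐂[a] = 2661120 := by
  rw [← card_cent_of_isConj (h.c3 a ha), h.cx']

theorem cent_dvd {a : G} (ha : orderOf a = 2 ∨ orderOf a = 3 ∨ orderOf a = 5 ∨ orderOf a = 7) :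
    Nat.card 𝐂[a] ∣ 21799895040 := by
  rcases ha with ha | ha | ha | ha
  · rcases h.cent2 ha with e | e <;> rw [e] <;> norm_num
  · rw [h.cent3 ha]; norm_num
  · rw [h.c5 a ha]; norm_num
  · rw [h.c7 a ha]; norm_num

theorem not57 {a u : G} (ha : orderOf a = 5 ∨ orderOf a = 7) (hu : orderOf u = 11)
    (hc : u ∈ 𝐂[a]) : False := by
  have := ord_dvd hc
  rcases ha with ha | ha
  · rw [hu, h.c5 a ha] at this; norm_num at this
  · rw [hu, h.c7 a ha] at this; norm_num at this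

theorem not_big {a u : G} (ha : orderOf a = 2 ∨ orderOf a = 3 ∨ orderOf a = 5 ∨ orderOf a = 7)
    {r : ℕ} (hr : Big r) (hu : orderOf u = r) (hc : u ∈ 𝐂[a]) : False := by
  have := (ord_dvd hc).trans (h.cent_dvd ha)
  rw [hu] at this
  rcases hr with rfl | rfl | rfl | rfl | rfl <;> norm_num at this

omit [Finite G] in
theorem E_le : E ≤ 𝐂[z] ⊓ 𝐂[y] := by rw [h.cy]; exact le_sup_left.trans le_sup_left

omit [Finite G] in
theorem x_mem : x ∈ 𝐂[z] ⊓ 𝐂[y] := by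
  rw [h.cy]; exact (le_sup_right.trans le_sup_left : zpowers x ≤ _) (mem_zpowers x)

omit [Finite G] in
theorem y_mem : y ∈ 𝐂[z] ⊓ 𝐂[y] := by
  rw [h.cy]; exact (le_sup_right : zpowers y ≤ _) (mem_zpowers y)

omit [Finite G] in
theorem zy : z ∈ 𝐂[y] := (h.E_le h.zE).2

theorem K_norm : 𝐂[z] ⊓ 𝐂[y] ≤ 𝐍[E] := by
  rw [h.cy]
  refine sup_le (sup_le le_normalizer (zpowers_le.2 h.xE)) (zpowers_le.2 ?_)
  apply mem_normalizer_of_forall
  intro e he
  rwa [conj_of_mc (mc' (h.E_le he).2)]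

theorem sylK : IsSylIn 2 E (𝐂[z] ⊓ 𝐂[y]) :=
  isSylIn_of_card h.E_le h.pgE (m := 33) (by rw [h.cy', h.cardE]) (by norm_num)

theorem sylC : IsSylIn 2 E 𝐂[y] :=
  h.sylK.of_normalizer_le (h.E_le.trans inf_le_right) fun g hg hn =>
    ⟨mc_of_conj (h.uniqE (conj_mem_of_mem_normalizer hn h.zE) (by rw [ord_conj, h.z2])), hg⟩

theorem inv_K {c : G} (hc : c ∈ 𝐂[z] ⊓ 𝐂[y]) (ho : orderOf c = 2) : c = z :=
  h.uniqE (h.sylK.mem_of_normalizes (k := 1) ho hc (h.K_norm hc)) ho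

theorem inv_C {c : G} (hc : c ∈ 𝐂[y]) (ho : orderOf c = 2) : ∃ g ∈ 𝐂[y], g * c * g⁻¹ = z := by
  obtain ⟨g, hg, e⟩ := h.sylC.exists_conj_invol_mem ho hc
  exact ⟨g, hg, h.uniqE e (by rw [ord_conj, ho])⟩

end J4I

/-- `O(C(y))` -/
def OU (y : G) : Subgroup G := (pPrimeCore 2 𝐂[y]).map (𝐂[y]).subtype

omit [Finite G] in
theorem OU_le : OU y ≤ 𝐂[y] := map_subtype_le _

theorem OU_odd : (Nat.card (OU y)).Coprime 2 := H1.coprime_card_map_pPrimeCore 2 _

theorem OU_norm : 𝐍[zpowers y] ≤ 𝐍[OU y] := by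
  have h1 : 𝐍[zpowers y] ≤ 𝐍[𝐂[y]] := by
    intro g hg
    apply mem_normalizer_of_forall
    intro c hc
    obtain ⟨k, hk⟩ := conj_mem_of_mem_normalizer' hg (mem_zpowers y)
    simp only at hk
    apply mc_of_conj
    calc g * c * g⁻¹ * y * (g * c * g⁻¹)⁻¹ = g * (c * (g⁻¹ * y * g) * c⁻¹) * g⁻¹ := by group
      _ = g * (g⁻¹ * y * g) * g⁻¹ := by rw [← hk, ← conj_zpow, conj_of_mc hc]
      _ = y := by group
  intro g hg
  apply mem_normalizer_of_cj_le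
  refine H1.le_map_pPrimeCore ?_ ?_ (by rw [card_cj]; exact OU_odd)
  · exact (cj_mono g OU_le).trans (cj_eq_iff.2 (h1 hg)).le
  · rw [← cj_normalizer]
    refine (cj_eq_iff.2 (h1 hg)).ge.trans (cj_mono g ?_)
    intro c hc
    apply mem_normalizer_of_forall
    rintro _ ⟨o, ho, rfl⟩
    exact ⟨_, (inferInstance : (pPrimeCore 2 𝐂[y]).Normal).conj_mem o ho ⟨c, hc⟩, rfl⟩

theorem OU_norm' : 𝐂[y] ≤ 𝐍[OU y] := cent_le_norm.trans OU_norm

namespace J4I
variable (h : J4I z t x y s f E)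
include h

theorem O_sup : OU y ⊔ (𝐂[z] ⊓ 𝐂[y]) = 𝐂[y] := by
  have h1 := H6.pPrimeCore_sup_centralizer (G := 𝐂[y]) (u := ⟨z, h.zy⟩)
    (by rw [← h.z2]; exact (orderOf_injective (𝐂[y]).subtype (subtype_injective _) _).symm)
    (fun g hg => Subtype.ext (h.inv_K ⟨mc.2 (congrArg Subtype.val hg.eq).symm,
      (g * ⟨z, h.zy⟩ * g⁻¹).2⟩ (by simp [ord_conj, h.z2])))
  refine le_antisymm (sup_le OU_le inf_le_right) fun c hc => ?_
  have h2 : (⟨c, hc⟩ : 𝐂[y]) ∈ pPrimeCore 2 𝐂[y] ⊔ centralizer {⟨z, h.zy⟩} := h1 ▸ mem_top _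
  have h3 := mem_map_of_mem (𝐂[y]).subtype h2
  rw [Subgroup.map_sup] at h3
  refine (sup_le_sup_left (b := 𝐂[z] ⊓ 𝐂[y]) ?_ (OU y) : _ ≤ _) h3
  rintro _ ⟨d, hd, rfl⟩
  exact ⟨mc.2 (congrArg Subtype.val (mem_centralizer_singleton_iff.1 hd)), d.2⟩

theorem y_O : y ∈ OU y :=
  H1.le_map_pPrimeCore (zpowers_le.2 (mc.2 rfl)) cent_le_norm
    (by rw [card_zp, h.y11]; norm_num) (mem_zpowers y)

theorem EO : E ⊓ OU y = ⊥ := by
  refine (Subgroup.disjoint_of_coprime_natCard ?_).eq_bot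
  rw [h.cardE]
  exact (Nat.Coprime.pow_right 3 OU_odd).symm

theorem x_not_O : x ∉ OU y := fun hx => by
  have : E ≤ E ⊓ 𝐂[x] := fun e he => ⟨he, by
    have h1 : e * x * e⁻¹ * x⁻¹ ∈ E ⊓ OU y :=
      ⟨by rw [mul_assoc, mul_assoc, ← mul_assoc x]
          exact E.mul_mem he (conj_mem_of_mem_normalizer h.xE (E.inv_mem he)),
        (OU y).mul_mem (conj_mem_of_mem_normalizer (OU_norm' (h.E_le he).2) hx)
          ((OU y).inv_mem hx)⟩
    rw [h.EO, mem_bot, mul_inv_eq_one] at h1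
    exact mc_of_conj h1⟩
  have h2 := card_le_of_le this
  rw [h.Ex, h.cardE, card_zp, h.z2] at h2
  omega

theorem O_inf : OU y ⊓ (𝐂[z] ⊓ 𝐂[y]) = zpowers y := by
  have h0 : zpowers y ≤ OU y ⊓ (𝐂[z] ⊓ 𝐂[y]) := zpowers_le.2 ⟨h.y_O, h.y_mem⟩
  have h1 := card_mul_relIndex (inf_le_right : OU y ⊓ (𝐂[z] ⊓ 𝐂[y]) ≤ _)
  have h2 := card_dvd_of_le h0
  have h3 := OU_odd.coprime_dvd_left (card_dvd_of_le (inf_le_left : OU y ⊓ (𝐂[z] ⊓ 𝐂[y]) ≤ _))
  have h4 := pow_relIndex (A := OU y) (inf_le_right.trans OU_norm') h.x_mem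
  rw [← inf_relIndex_right] at h4
  rw [h.cy'] at h1
  rw [card_zp, h.y11] at h2
  obtain ⟨k, hk⟩ := h2
  refine (eq_of_le_of_card_ge h0 ?_).symm
  rw [card_zp, h.y11, hk]
  rw [hk] at h1 h3
  generalize (OU y ⊓ (𝐂[z] ⊓ 𝐂[y])).relIndex (𝐂[z] ⊓ 𝐂[y]) = m at h1 h4
  have h5 : k * m = 24 := by linarith
  have h6 : k ≤ 24 := Nat.le_of_dvd (by norm_num) ⟨m, h5.symm⟩
  have h7 : k = 1 ∨ k = 3 := by
    have h8 : k ∣ 24 := ⟨m, h5.symm⟩
    interval_cases k <;> first | omega | (exfalso; revert h3; decide)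
  rcases h7 with rfl | rfl
  · rfl
  · obtain rfl : m = 8 := by omega
    exfalso
    apply h.x_not_O
    have e : x = x ^ 8 * x ^ 8 := by
      rw [← pow_add, show 8 + 8 = 3 * 5 + 1 by rfl, pow_succ, pow_mul, ← h.x3, pow_orderOf_eq_one]
      simp
    rw [e]; exact (OU y).mul_mem h4 h4

theorem O_cz {u : G} (hu : u ∈ OU y) (hz : u ∈ 𝐂[z]) : u ∈ zpowers y :=
  h.O_inf ▸ ⟨hu, hz, OU_le hu⟩

theorem cardC : Nat.card 𝐂[y] = 24 * Nat.card (OU y) := by
  have := H1.card_sup_mul_card_inf (N := OU y) (H := 𝐂[z] ⊓ 𝐂[y]) (inf_le_right.trans OU_norm')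
  rw [h.O_sup, h.O_inf, card_zp, h.y11, h.cy'] at this
  omega

/-- an element commuting with an element of order 3 is centralized by a conjugate of `z` -/
theorem three_z {a : G} (ha : orderOf a = 3) : ∃ z', IsConj z z' ∧ 𝐂[a] ≤ 𝐂[z'] := by
  obtain ⟨g, rfl⟩ := isConj_iff.1 (h.c3 a ha)
  refine ⟨g * z * g⁻¹, isConj_iff.2 ⟨g, rfl⟩, ?_⟩
  rw [← cj_cent1, ← cj_cent1]
  exact cj_mono g h.cx

theorem O_prime {p : ℕ} (hp : p.Prime) (hd : p ∣ Nat.card (OU y)) : p = 11 ∨ Big p := by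
  obtain ⟨u, hu, ho⟩ := exists_ord hp hd
  rcases prime_dvd_cases hp (h.ord ▸ hd.trans (card_subgroup_dvd_card _)) with
    rfl | rfl | rfl | rfl | rfl | hb
  · have := Nat.Coprime.eq_one_of_dvd OU_odd.symm hd
    omega
  · obtain ⟨z', hz', hc⟩ := h.three_z ho
    have o' : orderOf z' = 2 := by obtain ⟨g, rfl⟩ := isConj_iff.1 hz'; rw [ord_conj, h.z2]
    obtain ⟨g, hg, e⟩ := h.inv_C (mc' (hc (mc' (OU_le hu)))) o'
    have h1 : g * u * g⁻¹ ∈ 𝐂[z] := by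
      rw [← e, ← cj_cent1, mem_cj]
      simpa [mul_assoc] using hc (mc.2 rfl)
    have h2 := ord_dvd (h.O_cz (conj_mem_of_mem_normalizer (OU_norm' hg) hu) h1)
    rw [ord_conj, ho, card_zp, h.y11] at h2
    norm_num at h2
  · exact (h.not57 (Or.inl ho) h.y11 (mc' (OU_le hu))).elim
  · exact (h.not57 (Or.inr ho) h.y11 (mc' (OU_le hu))).elim
  · exact Or.inl rfl
  · exact Or.inr hb

end J4I

theorem dvd_big {n : ℕ} (hn : n ∣ 86775571046077562880)
    (h : ∀ p : ℕ, p.Prime → p ∣ n → p = 11 ∨ Big p) : n ∣ 43786049417 := by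
  have e : (86775571046077562880 : ℕ) = 1981808640 * 43786049417 := by norm_num
  rw [e] at hn
  refine Nat.Coprime.dvd_of_dvd_mul_left ?_ hn
  rw [Nat.coprime_iff_gcd_eq_one]
  by_contra hne
  obtain ⟨p, hp, hd⟩ := Nat.exists_prime_and_dvd hne
  have h1 := hd.trans (Nat.gcd_dvd_right _ _)
  rcases h p hp (hd.trans (Nat.gcd_dvd_left _ _)) with rfl | rfl | rfl | rfl | rfl | rfl <;>
    norm_num at h1

theorem dvd_pow_of_prime {n p k N : ℕ} (hp : p.Prime) (hn0 : n ≠ 0) (hn : n ∣ N)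
    (hN : ¬ p ^ (k + 1) ∣ N) (h : ∀ q : ℕ, q.Prime → q ∣ n → q = p) : n ∣ p ^ k := by
  have e := Nat.eq_prime_pow_of_unique_prime_dvd hn0 (p := p) (fun hq hd => h _ hq hd)
  rw [e] at hn ⊢
  exact pow_dvd_pow p (le_of_pow_dvd hn hN)

/-- `[U, n]` for an abelian subgroup `U` -/
def cm (U : Subgroup G) (hU : ∀ a ∈ U, ∀ b ∈ U, a * b = b * a) (n : G) (hn : n ∈ 𝐍[U]) :
    U →* G where
  toFun u := (u : G)⁻¹ * (n * u * n⁻¹)
  map_one' := by simp
  map_mul' a b := by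
    have h1 := hU _ (U.inv_mem b.2) _ (U.mul_mem (U.inv_mem a.2) (conj_mem_of_mem_normalizer hn a.2))
    calc ((a * b : U) : G)⁻¹ * (n * (a * b : U) * n⁻¹)
        = ((b : G)⁻¹ * ((a : G)⁻¹ * (n * a * n⁻¹))) * (n * b * n⁻¹) := by simp; group
      _ = _ := by rw [h1]; group

section
variable {U : Subgroup G} {hU : ∀ a ∈ U, ∀ b ∈ U, a * b = b * a} {n : G}
  {hn : n ∈ normalizer (U : Set G)}

omit [Finite G] in
theorem cm_apply (u : U) : cm U hU n hn u = (u : G)⁻¹ * (n * u * n⁻¹) := rfl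

omit [Finite G] in
theorem cm_le : (cm U hU n hn).range ≤ U := by
  rintro _ ⟨u, rfl⟩
  exact U.mul_mem (U.inv_mem u.2) (conj_mem_of_mem_normalizer hn u.2)

omit [Finite G] in
theorem card_cm : Nat.card (cm U hU n hn).range * Nat.card (U ⊓ 𝐂[n] : Subgroup G) =
    Nat.card U := by
  have h1 : (cm U hU n hn).ker = (U ⊓ 𝐂[n]).subgroupOf U := by
    ext u
    rw [MonoidHom.mem_ker, cm_apply, mem_subgroupOf, inv_mul_eq_one]
    exact ⟨fun e => ⟨u.2, mc' (mc_of_conj e.symm)⟩, fun e => (conj_of_mc (mc' e.2)).symm⟩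
  rw [← index_ker, h1, ← card_subgroupOf (inf_le_left : U ⊓ 𝐂[n] ≤ U), mul_comm,
    card_mul_index]

theorem mem_cm (h2 : n * n = 1) (ho : Odd (Nat.card U)) {u : G} :
    u ∈ (cm U hU n hn).range ↔ u ∈ U ∧ n * u * n⁻¹ = u⁻¹ := by
  have hi : n⁻¹ = n := inv_eq_of_mul_eq_one_right h2
  constructor
  · rintro ⟨v, rfl⟩
    refine ⟨cm_le ⟨v, rfl⟩, ?_⟩
    rw [cm_apply]
    have h1 := hU _ v.2 _ (U.inv_mem (conj_mem_of_mem_normalizer hn v.2))
    calc n * ((v : G)⁻¹ * (n * v * n⁻¹)) * n⁻¹ = (n * v * n⁻¹)⁻¹ * ((n * n) * v * (n * n)⁻¹) := by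
          group
      _ = _ := by rw [h2]; group
  · rintro ⟨hu, e⟩
    obtain ⟨k, hk⟩ := ho
    refine ⟨⟨u ^ k, U.pow_mem hu k⟩, ?_⟩
    rw [cm_apply]
    have h1 : u ^ (2 * k + 1) = 1 := by
      rw [← hk]; exact congrArg Subtype.val (pow_card_eq_one' (x := (⟨u, hu⟩ : U)))
    simp only
    rw [← conj_pow, e, inv_pow, ← mul_inv_rev, ← pow_add, inv_eq_iff_mul_eq_one, ← pow_succ,
      ← two_mul, h1]

end

omit [Finite G] in
theorem eq_one_of_inv {u : G} (ho : Odd (orderOf u)) (h : u = u⁻¹) : u = 1 := by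
  have h1 : u ^ 2 = 1 := by rw [sq]; nth_rewrite 2 [h]; simp
  have := Nat.Coprime.eq_one_of_dvd (Nat.coprime_two_right.2 ho) (orderOf_dvd_of_pow_eq_one h1)
  simpa using this

theorem zp_eq {A : Subgroup G} {p : ℕ} (hp : p.Prime) (hA : Nat.card A = p) {u : G} (hu : u ∈ A)
    (h1 : u ≠ 1) : zpowers u = A := by
  refine eq_of_le_of_card_ge (zpowers_le.2 hu) ?_
  have := ord_dvd hu
  rw [hA] at this
  rcases (Nat.dvd_prime hp).1 this with e | e
  · exact (h1 (orderOf_eq_one_iff.1 e)).elim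
  · rw [card_zp, e, hA]

theorem comm_of_sq {A : Subgroup G} {p : ℕ} (hp : p.Prime) (hA : Nat.card A = p ^ 2) :
    ∀ a ∈ A, ∀ b ∈ A, a * b = b * a := fun a ha b hb => by
  haveI : Fact p.Prime := ⟨hp⟩
  have := (IsPGroup.isMulCommutative_of_card_eq_prime_sq (G := A) hA).is_comm.comm ⟨a, ha⟩ ⟨b, hb⟩
  exact congrArg Subtype.val this

namespace J4I
variable (h : J4I z t x y s f E)
include h

theorem O_dvd : Nat.card (OU y) ∣ 11 ^ 3 := by
  have h0 : Nat.card (OU y) ∣ 86775571046077562880 := h.ord ▸ card_subgroup_dvd_card _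
  refine dvd_pow_of_prime (by norm_num) Nat.card_pos.ne' h0 (by norm_num) fun p hp hd => ?_
  rcases h.O_prime hp hd with e | hb
  · exact e
  · exfalso
    obtain ⟨u, hu, ho⟩ := exists_ord hp hd
    have h1 := normal_big (dvd_big h0 fun q hq => h.O_prime hq) hb ho hu
    have h2 := h.z_cent ((h.E_le.trans inf_le_right).trans (OU_norm'.trans h1))
    exact h.not_big (Or.inl h.z2) hb ho (mc' h2)

theorem O_pg : IsPGroup 11 (OU y) := by
  obtain ⟨k, -, hk⟩ := (Nat.dvd_prime_pow (by norm_num)).1 h.O_dvd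
  exact IsPGroup.of_card hk

theorem O_sylC : IsSylIn 11 (OU y) 𝐂[y] :=
  haveI : Fact (Nat.Prime 11) := ⟨by norm_num⟩
  isSylIn_of_card OU_le h.O_pg (m := 24) (by rw [h.cardC, mul_comm]) (by norm_num)

theorem card_syl {P : Subgroup G} (hP : IsSylIn 11 P ⊤) : Nat.card P = 1331 := by
  haveI : Fact (Nat.Prime 11) := ⟨by norm_num⟩
  obtain ⟨k, hk⟩ := IsPGroup.iff_card.1 hP.pg
  have h1 := card_mul_relIndex hP.le
  have h2 := hP.not_dvd_relIndex
  rw [card_top, h.ord, hk] at h1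
  have h3 : k ≤ 3 := le_of_pow_dvd (N := 86775571046077562880) ⟨_, h1.symm⟩ (by norm_num)
  rw [hk]
  interval_cases k <;> omega

theorem cardO : Nat.card (OU y) = 1331 := by
  haveI : Fact (Nat.Prime 11) := ⟨by norm_num⟩
  obtain ⟨k, hk3, hk⟩ := (Nat.dvd_prime_pow (by norm_num)).1 h.O_dvd
  have h0 := ord_dvd h.y_O
  rw [hk, h.y11] at h0
  have y1 := ne1 h.y11
  interval_cases k
  · norm_num at h0
  · exfalso
    obtain ⟨P, hP, hOP⟩ := exists_isSylIn_le h.O_pg le_top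
    have h1 := h.card_syl hP
    obtain ⟨c, hc, c1, hcc⟩ := exists_mem_centralizer_of_normalized hP.pg hP.pg
      (by rintro rfl; simp at h1) le_normalizer
    have hcy : c ∈ 𝐂[y] := mc.2 (hcc y (hOP h.y_O)).symm
    have hcO : c ∈ OU y := h.O_sylC.le_of_normalizes (Q := zpowers c)
      (hP.pg.to_le (zpowers_le.2 hc)) (zpowers_le.2 hcy) (zpowers_le.2 (OU_norm' hcy))
      (mem_zpowers c)
    have h2 : P ≤ 𝐂[y] := fun a ha => by
      obtain ⟨j, hj⟩ := (zp_eq (by norm_num) hk hcO c1).ge h.y_O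
      rw [← hj]
      exact mc.2 (Commute.zpow_right (hcc a ha) j).eq
    have h3 := card_le_of_le (h.O_sylC.le_of_normalizes hP.pg h2 (h2.trans OU_norm'))
    omega
  · exfalso
    have hU := comm_of_sq (by norm_num) hk
    have hz := OU_norm' h.zy
    have h1 := card_cm (hU := hU) (hn := hz)
    have h2 : OU y ⊓ 𝐂[z] = zpowers y :=
      le_antisymm (fun u hu => h.O_cz hu.1 hu.2) (zpowers_le.2 ⟨h.y_O, h.y_mem.1⟩)
    rw [h2, card_zp, h.y11, hk] at h1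
    have h3 : Nat.card (cm (OU y) hU z hz).range = 11 := by omega
    obtain ⟨w, hw, ho⟩ := exists_ord (p := 11) (by norm_num) (by rw [h3])
    have hodd : Odd (Nat.card (OU y)) := by rw [hk]; decide
    have h4 := zp_eq (by norm_num) h3 hw (ne1 ho)
    have h5 := (mem_cm (sq1 h.z2) hodd).1 hw
    have h6 : E ≤ 𝐍[zpowers w] := fun e he => by
      apply mem_norm_zp
      rw [h4, mem_cm (sq1 h.z2) hodd]
      refine ⟨conj_mem_of_mem_normalizer (OU_norm' (h.E_le he).2) h5.1, ?_⟩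
      have := mc.1 (h.E_le he).1
      calc z * (e * w * e⁻¹) * z⁻¹ = (z * e) * w * (z * e)⁻¹ := by group
        _ = e * (z * w * z⁻¹) * e⁻¹ := by rw [← this]; group
        _ = _ := by rw [h5.2]; group
    have h7 := conj_of_mc (h.z_cent h6)
    exact ne1 ho (eq_one_of_inv (by rw [ho]; decide) (h7.symm.trans h5.2))
  · exact hk

theorem cardC' : Nat.card 𝐂[y] = 31944 := by rw [h.cardC, h.cardO]

theorem O_syl : IsSylIn 11 (OU y) ⊤ :=
  haveI : Fact (Nat.Prime 11) := ⟨by norm_num⟩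
  isSylIn_of_card le_top h.O_pg (m := 65195770883604480) (by rw [card_top, h.ord, h.cardO])
    (by norm_num)

end J4I

omit [Finite G] in
theorem cent_zp (u : G) : centralizer (zpowers u : Set G) = 𝐂[u] := by
  rw [zpowers_eq_closure, centralizer_closure]

theorem nc_dvd {u : G} {p : ℕ} (hp : p.Prime) (hu : orderOf u = p) :
    (𝐂[u]).relIndex 𝐍[zpowers u] ∣ p - 1 := by
  rw [← cent_zp]
  exact H26.relIndex_centralizer_dvd_of_card_prime hp (by rw [card_zp, hu])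

theorem cent_normal (u : G) : 𝐍[zpowers u] ≤ 𝐍[𝐂[u]] := by
  rw [← cent_zp]
  intro g hg
  rw [← cj_eq_iff, cj_centralizer, cj_eq_iff.2 hg]

/-- an element of prime order normalizing `⟨u⟩` centralizes `u` or its order divides `|N:C|` -/
theorem cent_or_dvd {u n : G} {q : ℕ} (hq : q.Prime) (hn : orderOf n = q)
    (h : n ∈ 𝐍[zpowers u]) : n ∈ 𝐂[u] ∨ q ∣ (𝐂[u]).relIndex 𝐍[zpowers u] := by
  by_contra hc
  push Not at hc
  have h1 := pow_relIndex (cent_normal u) h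
  apply hc.1
  have h2 : (orderOf n).Coprime ((𝐂[u]).relIndex 𝐍[zpowers u]) := by
    rw [hn]; exact (Nat.Prime.coprime_iff_not_dvd hq).2 hc.2
  obtain ⟨k, hk⟩ := exists_pow_eq_self_of_coprime h2.symm
  rw [← hk]
  exact pow_mem h1 k

theorem syl_mod {P : Subgroup G} {p : ℕ} [Fact p.Prime] (hP : IsSylIn p P ⊤) :
    (𝐍[P]).index % p = 1 % p := by
  obtain ⟨Q, rfl⟩ := hP.exists_sylow_top
  have := card_sylow_modEq_one p G
  rwa [Sylow.card_eq_index_normalizer Q] at this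

namespace J4I
variable (h : J4I z t x y s f E)
include h

theorem s_norm : s ∈ 𝐍[zpowers y] := mem_norm_zp (by rw [h.sy]; simp)

theorem f_norm : f ∈ 𝐍[zpowers y] := mem_norm_zp (by rw [h.fy]; exact pow_mem (mem_zpowers y) 3)

omit [Finite G] in
theorem s_not : s ∉ 𝐂[y] := fun hs =>
  ne1 h.y11 (eq_one_of_inv (by rw [h.y11]; decide) ((conj_of_mc hs).symm.trans h.sy))

theorem idx10 : (𝐂[y]).relIndex 𝐍[zpowers y] = 10 := by
  have h1 := nc_dvd (by norm_num) h.y11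
  have h2 := (cent_or_dvd (by norm_num) h.s2 h.s_norm).resolve_left h.s_not
  have h3 := (cent_or_dvd (by norm_num) h.f5 h.f_norm).resolve_left
    fun hf => h.not57 (Or.inl h.f5) h.y11 (mc' hf)
  exact Nat.dvd_antisymm h1 (Nat.Coprime.mul_dvd_of_dvd_of_dvd (by norm_num) h2 h3)

theorem cardN : Nat.card 𝐍[zpowers y] = 319440 := by
  rw [← card_mul_relIndex (cent_le_norm (a := y)), h.cardC', h.idx10]

/-- the normalizer of the Sylow `11`-subgroup has no large primes -/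
theorem NU_big {n : G} (hn : n ∈ 𝐍[OU y]) {r : ℕ} (hr : Big r) (ho : orderOf n = r) : False := by
  haveI : Fact r.Prime := ⟨hr.prime⟩
  have h2 := H2.card_modEq_card_inf_centralizer (pg_zp ho) (V := OU y) (zpowers_le.2 hn)
  have h3 : Nat.card (OU y ⊓ centralizer (zpowers n : Set G) : Subgroup G) ∣ 11 ^ 3 := by
    have := card_dvd_of_le (inf_le_left : OU y ⊓ centralizer (zpowers n : Set G) ≤ _)
    rwa [h.cardO] at this
  obtain ⟨j, hj, hj'⟩ := (Nat.dvd_prime_pow (by norm_num)).1 h3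
  rw [h.cardO, hj'] at h2
  have h4 := ppow_eq (p := 11) (k := 3) (by norm_num) hr
    (by rcases hr with rfl | rfl | rfl | rfl | rfl <;> norm_num) (by norm_num) hj h2
  have h5 : OU y ⊓ centralizer (zpowers n : Set G) = OU y :=
    eq_of_le_of_card_ge inf_le_left (by rw [hj', h.cardO, h4]; norm_num)
  have h6 : y ∈ 𝐂[n] := by rw [← cent_zp]; exact (h5.ge h.y_O).2
  have := ord_dvd (mc' h6)
  rw [ho, h.cardC'] at this
  rcases hr with rfl | rfl | rfl | rfl | rfl <;> norm_num at this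

/-- an element of order 11 commuting with a conjugate of `z` generates a conjugate of `⟨y⟩` -/
theorem ztype {z' u : G} (hz : IsConj z z') (hu : orderOf u = 11) (hc : u ∈ 𝐂[z']) :
    ∃ g : G, cj g (zpowers u) = zpowers y := by
  haveI : Fact (Nat.Prime 11) := ⟨by norm_num⟩
  obtain ⟨g, rfl⟩ := isConj_iff.1 hz
  have h1 : g⁻¹ * u * g⁻¹⁻¹ ∈ 𝐂[z] := by rw [← cj_cent1, mem_cj] at hc; simpa using hc
  have h2 := syl_zp (p := 11) (by rw [ord_conj, hu]) h1 (by rw [h.cz]; norm_num)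
  have h3 := syl_zp (p := 11) h.y11 h.y_mem.1 (by rw [h.cz]; norm_num)
  obtain ⟨k, -, hk⟩ := h2.exists_cj_eq h3
  exact ⟨k * g⁻¹, by rw [cj_mul, cj_zpowers g⁻¹, hk]⟩

theorem cent11 {a : G} (ha : orderOf a = 2 ∨ orderOf a = 3) {A : Subgroup G} (hA : IsPGroup 11 A) :
    Nat.card (A ⊓ 𝐂[a] : Subgroup G) ∣ 11 := by
  haveI : Fact (Nat.Prime 11) := ⟨by norm_num⟩
  obtain ⟨k, hk⟩ := IsPGroup.iff_card.1 (hA.to_le (inf_le_left : A ⊓ 𝐂[a] ≤ A))
  have h1 := (card_dvd_of_le (inf_le_right : A ⊓ 𝐂[a] ≤ _)).trans (h.cent_dvd (by tauto))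
  rw [hk] at h1 ⊢
  exact pow_dvd_pow 11 (le_of_pow_dvd (m := 1) h1 (by norm_num))

theorem cent_y {a : G} (ha : orderOf a = 2 ∨ orderOf a = 3) (hy : a ∈ 𝐂[y]) :
    OU y ⊓ 𝐂[a] = zpowers y := by
  refine (eq_of_le_of_card_ge (zpowers_le.2 (mem_inf.2 ⟨h.y_O, mc' hy⟩)) ?_).symm
  rw [card_zp, h.y11]
  exact Nat.le_of_dvd (by norm_num) (h.cent11 ha h.O_pg)

end J4I

end Cfsg.Agent.J4A
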